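import Mathlib
import Cfsg.Agent.S0044
import Cfsg.Agent.S0143
import Cfsg.Agent.S0558
import Cfsg.Agent.S0559
import Cfsg.Agent.S0561
import Cfsg.Agent.S0562
import Cfsg.Agent.S0566
import Cfsg.Agent.S0581

/-!
# Kegel–Wielandt, coprime case (helper9), part 1: basic tools, generation, centralizers.
-/

set_option autoImplicit false

namespace Cfsg.Agent.Helper9.KW

universe u

open scoped Pointwise

variable {G : Type u} [Group G]

theorem eq_one_of_dvd_of_coprime {d m n : ℕ} (h : m.Coprime n) (h1 : d ∣ m) (h2 : d ∣ n) : d = 1 := by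
  have h3 := Nat.dvd_gcd h1 h2
  rw [h.gcd_eq_one] at h3
  exact Nat.dvd_one.mp h3

theorem mem_conj {g x : G} {H : Subgroup G} : x ∈ MulAut.conj g • H ↔ g⁻¹ * x * g ∈ H := by
  rw [Subgroup.mem_pointwise_smul_iff_inv_smul_mem, MulAut.smul_def, MulAut.conj_inv_apply]

/-- In a finite group, `n S n⁻¹ ≤ S` already gives `n ∈ N(S)`. -/
theorem mem_normalizer_of_conj_le [Finite G] (S : Subgroup G) (n : G)
    (h : ∀ x ∈ S, n * x * n⁻¹ ∈ S) : n ∈ Subgroup.normalizer (S : Set G) := by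
  rw [Subgroup.mem_normalizer_iff]
  intro x
  refine ⟨h x, fun hx => ?_⟩
  have hinj : Function.Injective (fun y : ↥S => (⟨n * y.1 * n⁻¹, h y.1 y.2⟩ : ↥S)) := by
    intro a b hab
    have h0 := congrArg Subtype.val hab
    have h1 : n * a.1 * n⁻¹ = n * b.1 * n⁻¹ := h0
    apply Subtype.ext
    have h2 : a.1 = n⁻¹ * (n * a.1 * n⁻¹) * n := by group
    rw [h2, h1]; group
  obtain ⟨y, hy⟩ := (Finite.injective_iff_surjective.mp hinj) ⟨n * x * n⁻¹, hx⟩
  have h0 := congrArg Subtype.val hy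
  have h1 : n * y.1 * n⁻¹ = n * x * n⁻¹ := h0
  have h2 : y.1 = x := by
    have h3 : y.1 = n⁻¹ * (n * y.1 * n⁻¹) * n := by group
    rw [h3, h1]; group
  rw [← h2]; exact y.2

theorem exists_mul_of_mem_sup (A B : Subgroup G)
    (h : B ≤ Subgroup.normalizer (A : Set G)) {w : G} (hw : w ∈ A ⊔ B) :
    ∃ a ∈ A, ∃ b ∈ B, w = a * b := by
  let S : Subgroup G :=
    { carrier := {w | ∃ a ∈ A, ∃ b ∈ B, w = a * b}
      one_mem' := ⟨1, A.one_mem, 1, B.one_mem, (one_mul 1).symm⟩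
      mul_mem' := by
        rintro _ _ ⟨a, ha, b, hb, rfl⟩ ⟨a', ha', b', hb', rfl⟩
        exact ⟨a * (b * a' * b⁻¹),
          A.mul_mem ha ((Subgroup.mem_normalizer_iff.mp (h hb) a').mp ha'),
          b * b', B.mul_mem hb hb', by group⟩
      inv_mem' := by
        rintro _ ⟨a, ha, b, hb, rfl⟩
        exact ⟨b⁻¹ * a⁻¹ * b⁻¹⁻¹,
          (Subgroup.mem_normalizer_iff.mp (h (B.inv_mem hb)) a⁻¹).mp (A.inv_mem ha), b⁻¹,
          B.inv_mem hb, by group⟩ }
  have hS : A ⊔ B ≤ S :=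
    sup_le (fun a ha => ⟨a, ha, 1, B.one_mem, (mul_one a).symm⟩)
      (fun b hb => ⟨1, A.one_mem, b, hb, (one_mul b).symm⟩)
  exact hS hw

theorem conj_mem_centralizer {R : Subgroup G} {n c : G} (hn : n ∈ Subgroup.normalizer (R : Set G))
    (hc : c ∈ Subgroup.centralizer (R : Set G)) :
    n * c * n⁻¹ ∈ Subgroup.centralizer (R : Set G) := by
  rw [Subgroup.mem_centralizer_iff] at hc ⊢
  intro y hy
  have hy' : n⁻¹ * y * n ∈ R := (Subgroup.mem_normalizer_iff''.mp hn y).mp hy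
  have h1 := hc _ hy'
  have e1 : y * (n * c * n⁻¹) = n * ((n⁻¹ * y * n) * c) * n⁻¹ := by group
  have e2 : n * c * n⁻¹ * y = n * (c * (n⁻¹ * y * n)) * n⁻¹ := by group
  rw [e1, e2, h1]

theorem pow_mul_normalizes {C : Subgroup G} {a c : G} (ha : a ∈ Subgroup.normalizer (C : Set G))
    (hc : c ∈ C) (k : ℕ) : ∃ c' ∈ C, (a * c) ^ k = a ^ k * c' := by
  induction k with
  | zero => exact ⟨1, C.one_mem, by simp⟩
  | succ k ih =>
    obtain ⟨c', hc', h⟩ := ih
    refine ⟨a⁻¹ * c' * a * c, C.mul_mem ?_ hc, ?_⟩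
    · exact (Subgroup.mem_normalizer_iff''.mp ha c').mp hc'
    · rw [pow_succ, h, pow_succ]; group

theorem nil_of_le {A K : Subgroup G} (hA : Group.IsNilpotent A) (hK : K ≤ A) :
    Group.IsNilpotent K := by
  haveI := hA
  haveI : Group.IsNilpotent (K.subgroupOf A) := Subgroup.isNilpotent _
  exact Group.nilpotent_of_mulEquiv (Subgroup.subgroupOfEquivOfLe hK)

theorem card_conj (g : G) (S : Subgroup G) : Nat.card ↥(MulAut.conj g • S) = Nat.card S :=
  (Nat.card_congr (Subgroup.equivSMul (MulAut.conj g) S).toEquiv).symm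

theorem index_conj [Finite G] (g : G) (S : Subgroup G) : (MulAut.conj g • S).index = S.index := by
  have h1 := (MulAut.conj g • S).card_mul_index
  have h2 := S.card_mul_index
  rw [card_conj] at h1
  exact Nat.eq_of_mul_eq_mul_left Nat.card_pos (h1.trans h2.symm)

theorem conj_ne_bot {g : G} {S : Subgroup G} (hS : S ≠ ⊥) : MulAut.conj g • S ≠ ⊥ := by
  intro e
  apply hS
  rw [Subgroup.eq_bot_iff_card] at e ⊢
  rw [card_conj] at e
  exact e

/-- Sylow: a `q`-subgroup lies in a conjugate of a given Sylow `q`-subgroup. -/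
theorem sylow_conj_le [Finite G] {q : ℕ} [Fact q.Prime] {Q T : Subgroup G} (hQ : IsPGroup q Q)
    (hind : ¬ q ∣ Q.index) (hT : IsPGroup q T) : ∃ g : G, T ≤ MulAut.conj g • Q := by
  obtain ⟨R, hR⟩ := hT.exists_le_sylow
  obtain ⟨g, hg⟩ := MulAction.exists_smul_eq G (hQ.toSylow hind) R
  refine ⟨g, ?_⟩
  have h2 : T ≤ ((g • hQ.toSylow hind : Sylow q G) : Subgroup G) := hg ▸ hR
  rw [Sylow.smul_def, Sylow.pointwise_smul_def] at h2
  exact h2

theorem le_of_isPGroup_of_normalizes [Finite G] {p : ℕ} [Fact p.Prime] {P T : Subgroup G}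
    (hP : IsPGroup p P) (hind : ¬ p ∣ P.index) (hT : IsPGroup p T)
    (hN : T ≤ Subgroup.normalizer (P : Set G)) : T ≤ P := by
  have h1 : IsPGroup p ↥(T ⊔ P) := IsPGroup.to_sup_of_normal_right' hT hP hN
  obtain ⟨n, hn⟩ := IsPGroup.iff_card.mp h1
  have h2 : P.relIndex (T ⊔ P) ∣ Nat.card ↥(T ⊔ P) := Subgroup.relIndex_dvd_card P (T ⊔ P)
  rw [hn] at h2
  obtain ⟨m, _, hm⟩ := (Nat.dvd_prime_pow Fact.out).mp h2
  have h3 : P.relIndex (T ⊔ P) ∣ P.index := Subgroup.relIndex_dvd_index_of_le le_sup_right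
  have h4 : m = 0 := by
    by_contra hm0
    apply hind
    rw [hm] at h3
    exact (dvd_pow_self p hm0).trans h3
  rw [h4, pow_zero] at hm
  exact le_sup_left.trans (Subgroup.relIndex_eq_one.mp hm)

/-! ### Factorizations -/

structure Fac (A B : Subgroup G) : Prop where
  nilA : Group.IsNilpotent A
  nilB : Group.IsNilpotent B
  cop : (Nat.card A).Coprime (Nat.card B)
  fac : ∀ g : G, ∃ a ∈ A, ∃ b ∈ B, g = a * b

theorem Fac.symm {A B : Subgroup G} (h : Fac A B) : Fac B A :=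
  ⟨h.nilB, h.nilA, h.cop.symm, fun g => by
    obtain ⟨a, ha, b, hb, hg⟩ := h.fac g⁻¹
    exact ⟨b⁻¹, B.inv_mem hb, a⁻¹, A.inv_mem ha, by rw [← mul_inv_rev, ← hg, inv_inv]⟩⟩

theorem Fac.inf_eq_bot [Finite G] {A B : Subgroup G} (h : Fac A B) : A ⊓ B = ⊥ := by
  rw [eq_bot_iff]
  intro x hx
  have h1 : orderOf x ∣ Nat.card A := Subgroup.orderOf_dvd_natCard A hx.1
  have h2 : orderOf x ∣ Nat.card B := Subgroup.orderOf_dvd_natCard B hx.2
  exact Subgroup.mem_bot.mpr (orderOf_eq_one_iff.mp (eq_one_of_dvd_of_coprime h.cop h1 h2))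

theorem Fac.card_mul [Finite G] {A B : Subgroup G} (h : Fac A B) :
    Nat.card A * Nat.card B = Nat.card G := by
  have hc : A.IsComplement' B := by
    apply Subgroup.isComplement'_of_disjoint_and_mul_eq_univ (disjoint_iff.mpr h.inf_eq_bot)
    rw [Set.eq_univ_iff_forall]
    intro g
    obtain ⟨a, ha, b, hb, hg⟩ := h.fac g
    exact ⟨a, ha, b, hb, hg.symm⟩
  exact hc.card_mul_card

theorem Fac.index_eq [Finite G] {A B : Subgroup G} (h : Fac A B) : A.index = Nat.card B := by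
  have h1 := A.card_mul_index
  have h2 := h.card_mul
  exact Nat.eq_of_mul_eq_mul_left Nat.card_pos (h1.trans h2.symm)

theorem Fac.conj_right [Finite G] {A B : Subgroup G} (h : Fac A B) (g : G) :
    Fac A (MulAut.conj g • B) := by
  refine ⟨h.nilA, ?_, ?_, ?_⟩
  · haveI := h.nilB
    exact Group.nilpotent_of_mulEquiv (Subgroup.equivSMul (MulAut.conj g) B)
  · rw [card_conj]; exact h.cop
  · exact (Cfsg.Agent.S0559.result A B A (MulAut.conj g • B) h.fac
      ⟨1, by rw [map_one, one_smul]⟩ ⟨g, rfl⟩).1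

theorem le_of_pi [Finite G] {A B : Subgroup G} (h : Fac A B) {C : Subgroup G}
    (hN : A ≤ Subgroup.normalizer (C : Set G)) (hC : ∀ c ∈ C, c ^ Nat.card A = 1) : C ≤ A := by
  intro y hy
  obtain ⟨a, ha, b, hb, hyab⟩ := h.fac y
  have hb' : b = a⁻¹ * y := by rw [hyab]; group
  obtain ⟨c', hc', hpow⟩ := pow_mul_normalizes (hN (A.inv_mem ha)) hy (Nat.card A)
  have h1 : (a⁻¹) ^ Nat.card A = 1 :=
    orderOf_dvd_iff_pow_eq_one.mp (Subgroup.orderOf_dvd_natCard A (A.inv_mem ha))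
  have h2 : b ^ Nat.card A ∈ C := by rw [hb', hpow, h1, one_mul]; exact hc'
  have h3 : (b ^ Nat.card A) ^ Nat.card A = 1 := hC _ h2
  have h5 : orderOf b ∣ Nat.card A * Nat.card A := by
    apply orderOf_dvd_of_pow_eq_one; rw [pow_mul]; exact h3
  have h6 : orderOf b ∣ Nat.card B := Subgroup.orderOf_dvd_natCard B hb
  have h7 : (Nat.card A * Nat.card A).Coprime (Nat.card B) := Nat.Coprime.mul_left h.cop h.cop
  have h9 : b = 1 := orderOf_eq_one_iff.mp (eq_one_of_dvd_of_coprime h7 h5 h6)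
  rw [hyab, h9, mul_one]; exact ha

theorem mem_of_normalizer_pi [Finite G] {A B : Subgroup G} (h : Fac A B) {t : G}
    (ht : t ∈ Subgroup.normalizer (A : Set G)) (hpow : t ^ Nat.card A = 1) : t ∈ A := by
  obtain ⟨a, ha, b, hb, htab⟩ := h.fac t
  have hb' : b = t * (t⁻¹ * a⁻¹ * t) := by rw [htab]; group
  have ha' : t⁻¹ * a⁻¹ * t ∈ A := (Subgroup.mem_normalizer_iff''.mp ht a⁻¹).mp (A.inv_mem ha)
  obtain ⟨c', hc', hp⟩ := pow_mul_normalizes ht ha' (Nat.card A)
  have h2 : b ^ Nat.card A ∈ A := by rw [hb', hp, hpow, one_mul]; exact hc'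
  have h3 : b ^ Nat.card A ∈ A ⊓ B := ⟨h2, B.pow_mem hb _⟩
  rw [h.inf_eq_bot, Subgroup.mem_bot] at h3
  have h5 : orderOf b ∣ Nat.card A := orderOf_dvd_of_pow_eq_one h3
  have h6 : orderOf b ∣ Nat.card B := Subgroup.orderOf_dvd_natCard B hb
  have h9 : b = 1 := orderOf_eq_one_iff.mp (eq_one_of_dvd_of_coprime h.cop h5 h6)
  rw [htab, h9, mul_one]; exact ha

/-! ### Sylow subgroups of the factors -/

structure SylOf (A : Subgroup G) (p : ℕ) (P : Subgroup G) : Prop where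
  le : P ≤ A
  norm : A ≤ Subgroup.normalizer (P : Set G)
  pg : IsPGroup p P
  ind : ¬ p ∣ P.index

theorem exists_sylOf [Finite G] {A B : Subgroup G} (h : Fac A B) (p : ℕ) [Fact p.Prime]
    (hp : p ∣ Nat.card A) : ∃ P, SylOf A p P ∧ P ≠ ⊥ := by
  haveI := h.nilA
  obtain ⟨S⟩ : Nonempty (Sylow p A) := inferInstance
  have q := (Group.isNilpotent_of_finite_tfae (G := A)).out 0 3
  have hSn : (S : Subgroup A).Normal := q.mp h.nilA p inferInstance S
  refine ⟨(S : Subgroup A).map A.subtype, ⟨Subgroup.map_subtype_le _, ?_, ?_, ?_⟩, ?_⟩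
  · intro a ha
    apply mem_normalizer_of_conj_le
    rintro x ⟨y, hy, rfl⟩
    exact ⟨⟨a, ha⟩ * y * ⟨a, ha⟩⁻¹, hSn.conj_mem y hy ⟨a, ha⟩, by simp⟩
  · exact S.isPGroup'.map A.subtype
  · rw [Subgroup.index_map_subtype]
    intro hdvd
    rcases (Nat.Prime.dvd_mul (Fact.out)).mp hdvd with h1 | h1
    · exact S.not_dvd_index h1
    · rw [h.index_eq] at h1
      exact (Nat.Prime.coprime_iff_not_dvd Fact.out).mp (Nat.Coprime.coprime_dvd_left hp h.cop) h1
  · intro e
    rw [Subgroup.map_eq_bot_iff_of_injective _ A.subtype_injective] at e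
    exact S.ne_bot_of_dvd_card hp e

theorem SylOf.le_of_pg [Finite G] {A P T : Subgroup G} {p : ℕ} [Fact p.Prime] (hS : SylOf A p P)
    (hTA : T ≤ A) (hT : IsPGroup p T) : T ≤ P :=
  le_of_isPGroup_of_normalizes hS.pg hS.ind hT (hTA.trans hS.norm)

theorem SylOf.mem_of_orderOf [Finite G] {A P : Subgroup G} {p : ℕ} [Fact p.Prime] (hS : SylOf A p P)
    {x : G} (hx : x ∈ A) (ho : orderOf x = p) : x ∈ P := by
  have hT : IsPGroup p (Subgroup.zpowers x) :=
    IsPGroup.of_card (n := 1) (by rw [Nat.card_zpowers, ho, pow_one])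
  exact hS.le_of_pg (Subgroup.zpowers_le.mpr hx) hT (Subgroup.mem_zpowers x)

theorem SylOf.dvd_card [Finite G] {A P : Subgroup G} {p : ℕ} [Fact p.Prime] (hS : SylOf A p P)
    (hP1 : P ≠ ⊥) : p ∣ Nat.card A := by
  obtain ⟨n, hn⟩ := IsPGroup.iff_card.mp hS.pg
  have hn0 : n ≠ 0 := by
    rintro rfl
    rw [pow_zero] at hn
    exact hP1 ((Subgroup.eq_bot_iff_card P).mpr hn)
  have h1 : p ∣ Nat.card P := by rw [hn]; exact dvd_pow_self p hn0
  exact h1.trans (Subgroup.card_dvd_of_le hS.le)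

theorem SylOf.commute [Finite G] {A P R : Subgroup G} {p r : ℕ} [Fact p.Prime] [Fact r.Prime]
    (hP : SylOf A p P) (hR : SylOf A r R) (hpr : p ≠ r) {x y : G} (hx : x ∈ P) (hy : y ∈ R) :
    x * y = y * x := by
  have h1 : x * y * x⁻¹ * y⁻¹ ∈ P ⊓ R := by
    constructor
    · have h0 : y * x⁻¹ * y⁻¹ ∈ P :=
        (Subgroup.mem_normalizer_iff.mp (hP.norm (hR.le hy)) x⁻¹).mp (P.inv_mem hx)
      have h2 : x * y * x⁻¹ * y⁻¹ = x * (y * x⁻¹ * y⁻¹) := by group
      rw [h2]; exact P.mul_mem hx h0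
    · have h0 : x * y * x⁻¹ ∈ R := (Subgroup.mem_normalizer_iff.mp (hR.norm (hP.le hx)) y).mp hy
      exact R.mul_mem h0 (R.inv_mem hy)
  have h3 : P ⊓ R = ⊥ := disjoint_iff.mp (IsPGroup.disjoint_of_ne p r hpr P R hP.pg hR.pg)
  rw [h3, Subgroup.mem_bot] at h1
  have h4 : x * y = (x * y * x⁻¹ * y⁻¹) * (y * x) := by group
  rw [h4, h1, one_mul]

theorem SylOf.conj [Finite G] {B S : Subgroup G} {s : ℕ} [Fact s.Prime] (hS : SylOf B s S) (g : G) :
    SylOf (MulAut.conj g • B) s (MulAut.conj g • S) := by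
  refine ⟨Subgroup.pointwise_smul_le_pointwise_smul_iff.mpr hS.le, ?_, ?_, ?_⟩
  · intro y hy
    apply mem_normalizer_of_conj_le
    intro x hx
    rw [mem_conj] at hy hx ⊢
    have h1 := (Subgroup.mem_normalizer_iff.mp (hS.norm hy) _).mp hx
    have e : g⁻¹ * (y * x * y⁻¹) * g = g⁻¹ * y * g * (g⁻¹ * x * g) * (g⁻¹ * y * g)⁻¹ := by group
    rw [e]; exact h1
  · exact hS.pg.of_equiv (Subgroup.equivSMul (MulAut.conj g) S)
  · rw [index_conj]; exact hS.ind

theorem SylOf.le_sup_centralizer [Finite G] {A B P : Subgroup G} (h : Fac A B) {p : ℕ}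
    [Fact p.Prime] (hP : SylOf A p P) : A ≤ P ⊔ (A ⊓ Subgroup.centralizer (P : Set G)) := by
  have hDA : P ⊔ (A ⊓ Subgroup.centralizer (P : Set G)) ≤ A := sup_le hP.le inf_le_left
  rw [← Subgroup.relIndex_eq_one]
  by_contra hne
  obtain ⟨t, ht, htd⟩ := Nat.exists_prime_and_dvd hne
  haveI : Fact t.Prime := ⟨ht⟩
  have htA : t ∣ Nat.card A := htd.trans (Subgroup.relIndex_dvd_card _ A)
  obtain ⟨T, hT, _⟩ := exists_sylOf h t htA
  have hTD : T ≤ P ⊔ (A ⊓ Subgroup.centralizer (P : Set G)) := by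
    by_cases htp : t = p
    · have hT' : IsPGroup p T := htp ▸ hT.pg
      exact (hP.le_of_pg hT.le hT').trans le_sup_left
    · refine le_trans ?_ le_sup_right
      intro y hy
      refine ⟨hT.le hy, ?_⟩
      show y ∈ Subgroup.centralizer (P : Set G)
      rw [Subgroup.mem_centralizer_iff]
      intro x hx
      exact hP.commute hT (fun e => htp e.symm) hx hy
  have h1 : (P ⊔ (A ⊓ Subgroup.centralizer (P : Set G))).relIndex A ∣ T.relIndex A :=
    Subgroup.relIndex_dvd_of_le_left A hTD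
  have h2 : T.relIndex A ∣ T.index := Subgroup.relIndex_dvd_index_of_le hT.le
  exact hT.ind (htd.trans (h1.trans h2))

theorem SylOf.exists_central [Finite G] {A B P : Subgroup G} (h : Fac A B) {p : ℕ} [Fact p.Prime]
    (hP : SylOf A p P) (hne : P ≠ ⊥) : ∃ z ∈ P, z ≠ 1 ∧ ∀ a ∈ A, a * z = z * a := by
  haveI : Nontrivial P := (Subgroup.nontrivial_iff_ne_bot P).mpr hne
  haveI := IsPGroup.center_nontrivial hP.pg
  obtain ⟨⟨z, hz⟩, hz1⟩ := exists_ne (1 : Subgroup.center P)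
  refine ⟨z.1, z.2, ?_, ?_⟩
  · intro hz0
    exact hz1 (Subtype.ext (Subtype.ext hz0))
  · have hle : P ⊔ (A ⊓ Subgroup.centralizer (P : Set G)) ≤
        Subgroup.centralizer ({z.1} : Set G) := by
      apply sup_le
      · intro x hx
        rw [Subgroup.mem_centralizer_iff]
        intro y hy
        rw [Set.mem_singleton_iff] at hy
        subst hy
        have h1 := Subgroup.mem_center_iff.mp hz ⟨x, hx⟩
        exact (congrArg Subtype.val h1).symm
      · intro x hx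
        rw [Subgroup.mem_centralizer_iff]
        intro y hy
        rw [Set.mem_singleton_iff] at hy
        subst hy
        exact (Subgroup.mem_centralizer_iff.mp hx.2 z.1 z.2)
    intro a ha
    have h1 := hle (hP.le_sup_centralizer h ha)
    rw [Subgroup.mem_centralizer_iff] at h1
    exact (h1 z.1 rfl).symm

theorem SylOf.mem_centralizer_of_coprime [Finite G] {A B P : Subgroup G} (h : Fac A B) {p : ℕ}
    [Fact p.Prime] (hP : SylOf A p P) {y : G} (hy : y ∈ A) (hc : (orderOf y).Coprime p) :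
    y ∈ Subgroup.centralizer (P : Set G) := by
  have hK : A ⊓ Subgroup.centralizer (P : Set G) ≤ Subgroup.normalizer (P : Set G) :=
    inf_le_left.trans hP.norm
  obtain ⟨u, hu, c, hc', hyuc⟩ := exists_mul_of_mem_sup P _ hK (hP.le_sup_centralizer h hy)
  have hcomm : Commute u c := Subgroup.mem_centralizer_iff.mp hc'.2 u hu
  obtain ⟨n, hn⟩ := IsPGroup.iff_card.mp hP.pg
  have hun : u ^ (p ^ n) = 1 := by
    rw [← hn]; exact orderOf_dvd_iff_pow_eq_one.mp (Subgroup.orderOf_dvd_natCard P hu)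
  have h1 : y ^ (p ^ n) ∈ Subgroup.centralizer (P : Set G) := by
    rw [hyuc, hcomm.mul_pow, hun, one_mul]
    exact Subgroup.pow_mem _ hc'.2 _
  have h2 : y ∈ Subgroup.zpowers (y ^ (p ^ n)) := by
    rw [mem_zpowers_pow_iff]
    exact Nat.Coprime.pow_left n hc.symm
  exact (Subgroup.zpowers_le.mpr h1) h2

/-! ### The minimal counterexample -/

structure Min (G : Type u) [Group G] : Prop where
  simple : ∀ N : Subgroup G, N.Normal → N = ⊥ ∨ N = ⊤
  nonsolv : ¬ Group.IsSolvable G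
  ih : ∀ (H A' B' : Subgroup G), H ≠ ⊤ → A' ≤ H → B' ≤ H → Group.IsNilpotent A' →
    Group.IsNilpotent B' → (Nat.card A').Coprime (Nat.card B') →
    (∀ h ∈ H, ∃ a ∈ A', ∃ b ∈ B', h = a * b) → Group.IsSolvable H

theorem Min.not_normal (hM : Min G) {T : Subgroup G} (h1 : T ≠ ⊥) (h2 : T ≠ ⊤) :
    Subgroup.normalizer (T : Set G) ≠ ⊤ :=
  fun h => (hM.simple T (Subgroup.normalizer_eq_top_iff.mp h)).elim h1 h2

theorem Min.not_pgroup [Finite G] (hM : Min G) (q : ℕ) [Fact q.Prime] : ¬ IsPGroup q G := by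
  intro hq
  apply hM.nonsolv
  haveI := hq.isNilpotent
  infer_instance

theorem Min.nontrivial (hM : Min G) : Nontrivial G := by
  by_contra hn
  rw [not_nontrivial_iff_subsingleton] at hn
  exact hM.nonsolv (Group.isSolvable_of_comm (fun a b => Subsingleton.elim _ _))

theorem Min.center_eq_bot (hM : Min G) : Subgroup.center G = ⊥ := by
  rcases hM.simple (Subgroup.center G) inferInstance with e | e
  · exact e
  · exfalso
    apply hM.nonsolv
    apply Group.isSolvable_of_comm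
    intro a b
    have hb : b ∈ Subgroup.center G := e ▸ Subgroup.mem_top b
    exact Subgroup.mem_center_iff.mp hb a

theorem Min.centralizer_ne_top (hM : Min G) {x : G} (hx : x ≠ 1) :
    Subgroup.centralizer ({x} : Set G) ≠ ⊤ := by
  intro h
  have h1 : x ∈ Subgroup.center G := Subgroup.centralizer_eq_top_iff_subset.mp h rfl
  rw [hM.center_eq_bot, Subgroup.mem_bot] at h1
  exact hx h1

theorem not_pgroup_fac [Finite G] (hM : Min G) {A B : Subgroup G} (h : Fac A B) (p : ℕ)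
    [Fact p.Prime] : ¬ IsPGroup p A := by
  intro hpA
  obtain ⟨n, hn⟩ := IsPGroup.iff_card.mp hpA
  by_cases hB : B = ⊥
  · have h1 : Nat.card G = p ^ n := by
      rw [← h.card_mul, hn, hB, Subgroup.card_bot, mul_one]
    exact hM.not_pgroup p (IsPGroup.of_card h1)
  · haveI := h.nilB
    haveI : Nontrivial B := (Subgroup.nontrivial_iff_ne_bot B).mpr hB
    have hc := Group.IsNilpotent.center_ne_bot (G := B)
    obtain ⟨⟨w, hw⟩, hw1⟩ := (Subgroup.ne_bot_iff_exists_ne_one).mp hc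
    have hw1' : (w : G) ≠ 1 := by
      intro e
      exact hw1 (Subtype.ext (Subtype.ext e))
    have hBle : B ≤ Subgroup.centralizer ({(w : G)} : Set G) := by
      intro b hb
      rw [Subgroup.mem_centralizer_iff]
      intro y hy
      rw [Set.mem_singleton_iff] at hy
      subst hy
      have h1 := Subgroup.mem_center_iff.mp hw ⟨b, hb⟩
      exact (congrArg Subtype.val h1).symm
    have hdvd : (Subgroup.centralizer ({(w : G)} : Set G)).index ∣ p ^ n := by
      rw [← hn, ← h.symm.index_eq]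
      exact Subgroup.index_dvd_of_le hBle
    obtain ⟨k, _, hk⟩ := (Nat.dvd_prime_pow Fact.out).mp hdvd
    haveI : Nontrivial G := hM.nontrivial
    haveI : IsSimpleGroup G := ⟨hM.simple⟩
    have hprime := Cfsg.Agent.S0143.result p k Fact.out (w : G) hw1' hk
    haveI : Fact (Nat.card G).Prime := ⟨hprime⟩
    exact hM.not_pgroup (Nat.card G) (IsPGroup.of_card (n := 1) (pow_one _).symm)

theorem exists_other_prime [Finite G] (hM : Min G) {A B : Subgroup G} (h : Fac A B) (p : ℕ)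
    [Fact p.Prime] : ∃ r : ℕ, r.Prime ∧ r ≠ p ∧ r ∣ Nat.card A := by
  by_contra hcon
  have hall : ∀ {d : ℕ}, d.Prime → d ∣ Nat.card A → d = p := by
    intro d hd hdA
    by_contra hdp
    exact hcon ⟨d, hd, hdp, hdA⟩
  have h1 := Nat.eq_prime_pow_of_unique_prime_dvd (Nat.card_pos (α := A)).ne' hall
  exact not_pgroup_fac hM h p (IsPGroup.of_card h1)

/-! ### Generation -/

theorem gen_top [Finite G] (hM : Min G) {A B : Subgroup G} (h : Fac A B) {p q : ℕ} [Fact p.Prime]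
    [Fact q.Prime] {P Q : Subgroup G} (hP : SylOf A p P) (hQ : SylOf B q Q) (hP1 : P ≠ ⊥)
    (hQ1 : Q ≠ ⊥) : P ⊔ Q = ⊤ := by
  by_contra hne
  have hXbot : P ⊔ Q ≠ ⊥ := fun e => hP1 (le_bot_iff.mp (e ▸ le_sup_left))
  have hNtop : Subgroup.normalizer ((P ⊔ Q : Subgroup G) : Set G) ≠ ⊤ := hM.not_normal hXbot hne
  have hfacN := Cfsg.Agent.S0562.result A B P Q h.fac hP.le
    ((Subgroup.normal_subgroupOf_iff_le_normalizer hP.le).mpr hP.norm) hQ.le
    ((Subgroup.normal_subgroupOf_iff_le_normalizer hQ.le).mpr hQ.norm)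
  set N := Subgroup.normalizer ((P ⊔ Q : Subgroup G) : Set G) with hN
  have hPN : P ≤ N := le_sup_left.trans Subgroup.le_normalizer
  have hQN : Q ≤ N := le_sup_right.trans Subgroup.le_normalizer
  haveI hsolv : Group.IsSolvable ↥N :=
    hM.ih N (N ⊓ A) (N ⊓ B) hNtop inf_le_left inf_le_left (nil_of_le h.nilA inf_le_right)
      (nil_of_le h.nilB inf_le_right)
      (Nat.Coprime.coprime_dvd_left (Subgroup.card_dvd_of_le inf_le_right)
        (Nat.Coprime.coprime_dvd_right (Subgroup.card_dvd_of_le inf_le_right) h.cop)) hfacN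
  -- permutability inside `N`
  have hHK : ∀ g : ↥N, ∃ a ∈ (N ⊓ A).subgroupOf N, ∃ b ∈ (N ⊓ B).subgroupOf N, g = a * b := by
    intro g
    obtain ⟨a, ha, b, hb, hg⟩ := hfacN g.1 g.2
    exact ⟨⟨a, ha.1⟩, Subgroup.mem_subgroupOf.mpr ha, ⟨b, hb.1⟩, Subgroup.mem_subgroupOf.mpr hb,
      Subtype.ext hg⟩
  have hA1 : P.subgroupOf N ≤ (N ⊓ A).subgroupOf N := by
    intro x hx
    rw [Subgroup.mem_subgroupOf] at hx ⊢
    exact ⟨x.2, hP.le hx⟩
  have hB1 : Q.subgroupOf N ≤ (N ⊓ B).subgroupOf N := by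
    intro x hx
    rw [Subgroup.mem_subgroupOf] at hx ⊢
    exact ⟨x.2, hQ.le hx⟩
  have hAn : ((P.subgroupOf N).subgroupOf ((N ⊓ A).subgroupOf N)).Normal := by
    rw [Subgroup.normal_subgroupOf_iff_le_normalizer hA1]
    intro x hx
    rw [Subgroup.mem_subgroupOf] at hx
    rw [Subgroup.mem_normalizer_iff]
    intro y
    rw [Subgroup.mem_subgroupOf, Subgroup.mem_subgroupOf]
    exact Subgroup.mem_normalizer_iff.mp (hP.norm hx.2) y.1
  have hBn : ((Q.subgroupOf N).subgroupOf ((N ⊓ B).subgroupOf N)).Normal := by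
    rw [Subgroup.normal_subgroupOf_iff_le_normalizer hB1]
    intro x hx
    rw [Subgroup.mem_subgroupOf] at hx
    rw [Subgroup.mem_normalizer_iff]
    intro y
    rw [Subgroup.mem_subgroupOf, Subgroup.mem_subgroupOf]
    exact Subgroup.mem_normalizer_iff.mp (hQ.norm hx.2) y.1
  have hall : ∀ {t : ℕ} [Fact t.Prime] {T : Subgroup G}, IsPGroup t T → ¬ t ∣ T.index → T ≤ N →
      (Nat.card (T.subgroupOf N)).Coprime (T.subgroupOf N).index := by
    intro t _ T hT hind hTN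
    have hT' : IsPGroup t (T.subgroupOf N) := hT.of_equiv (Subgroup.subgroupOfEquivOfLe hTN).symm
    obtain ⟨n, hn⟩ := IsPGroup.iff_card.mp hT'
    rw [hn]
    apply Nat.Coprime.pow_left
    rw [Nat.Prime.coprime_iff_not_dvd Fact.out]
    intro hd
    exact hind (hd.trans (Subgroup.relIndex_dvd_index_of_le hTN))
  obtain ⟨S, hS⟩ := Cfsg.Agent.S0561.result ((N ⊓ A).subgroupOf N) ((N ⊓ B).subgroupOf N)
    (P.subgroupOf N) (Q.subgroupOf N) hHK hA1 hAn hB1 hBn (hall hP.pg hP.ind hPN)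
    (hall hQ.pg hQ.ind hQN) 1 1
  rw [map_one, one_smul, one_smul] at hS
  -- elements of P * Q form a subgroup
  have hmemS : ∀ u ∈ P, ∀ v ∈ Q, ∃ hx : u * v ∈ N, (⟨u * v, hx⟩ : ↥N) ∈ S := by
    intro u hu v hv
    refine ⟨N.mul_mem (hPN hu) (hQN hv), ?_⟩
    have h1 : (⟨u * v, N.mul_mem (hPN hu) (hQN hv)⟩ : ↥N) ∈ (S : Set ↥N) := by
      rw [hS]
      exact ⟨⟨u, hPN hu⟩, Subgroup.mem_subgroupOf.mpr hu, ⟨v, hQN hv⟩,
        Subgroup.mem_subgroupOf.mpr hv, rfl⟩
    exact h1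
  have hSmem : ∀ s ∈ S, ∃ u ∈ P, ∃ v ∈ Q, (s : G) = u * v := by
    intro s hs
    have h1 : s ∈ (S : Set ↥N) := hs
    rw [hS] at h1
    obtain ⟨u, hu, v, hv, huv⟩ := h1
    exact ⟨u.1, Subgroup.mem_subgroupOf.mp hu, v.1, Subgroup.mem_subgroupOf.mp hv,
      (congrArg Subtype.val huv).symm⟩
  -- Kegel's lemma
  have hkegel : ∀ x : G, ∃ S' : Subgroup G, S' ≠ ⊤ ∧
      (S' : Set G) = (P : Set G) * ((MulAut.conj x • Q : Subgroup G) : Set G) := by
    intro x
    obtain ⟨a, ha, b, hb, hx⟩ := h.fac x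
    have hbQ : ∀ y : G, b⁻¹ * y * b ∈ Q ↔ y ∈ Q := fun y =>
      ((Subgroup.mem_normalizer_iff''.mp (hQ.norm hb) y)).symm
    refine ⟨MulAut.conj a • (S.map N.subtype), ?_, ?_⟩
    · intro e
      apply hne
      rw [eq_top_iff]
      intro g _
      have h1 : a * g * a⁻¹ ∈ MulAut.conj a • (S.map N.subtype) := e ▸ Subgroup.mem_top _
      rw [mem_conj] at h1
      obtain ⟨s, hs, hsg⟩ := h1
      obtain ⟨u, hu, v, hv, huv⟩ := hSmem s hs
      have h2 : g = u * v := by
        have h3 : (s : G) = a⁻¹ * (a * g * a⁻¹) * a := hsg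
        rw [← huv, h3]; group
      rw [h2]
      exact Subgroup.mul_mem _ (Subgroup.mem_sup_left hu) (Subgroup.mem_sup_right hv)
    · ext g
      constructor
      · intro hg
        have hg' : a⁻¹ * g * a ∈ S.map N.subtype := mem_conj.mp hg
        obtain ⟨s, hs, hsg⟩ := hg'
        obtain ⟨u, hu, v, hv, huv⟩ := hSmem s hs
        have h3 : (s : G) = a⁻¹ * g * a := hsg
        refine ⟨a * u * a⁻¹, (Subgroup.mem_normalizer_iff.mp (hP.norm ha) u).mp hu,
          a * v * a⁻¹, ?_, ?_⟩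
        · show a * v * a⁻¹ ∈ MulAut.conj x • Q
          rw [mem_conj, hx]
          have e : (a * b)⁻¹ * (a * v * a⁻¹) * (a * b) = b⁻¹ * v * b := by group
          rw [e]
          exact (hbQ v).mpr hv
        · show a * u * a⁻¹ * (a * v * a⁻¹) = g
          have e : a * u * a⁻¹ * (a * v * a⁻¹) = a * (u * v) * a⁻¹ := by group
          rw [e, ← huv, h3]; group
      · rintro ⟨u', hu', w, hw, rfl⟩
        have hw' : w ∈ MulAut.conj x • Q := hw
        rw [mem_conj, hx] at hw'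
        have hw2 : a⁻¹ * w * a ∈ Q := by
          apply (hbQ _).mp
          have e : b⁻¹ * (a⁻¹ * w * a) * b = (a * b)⁻¹ * w * (a * b) := by group
          rw [e]; exact hw'
        have hu2 : a⁻¹ * u' * a ∈ P := (Subgroup.mem_normalizer_iff''.mp (hP.norm ha) u').mp hu'
        obtain ⟨hxN, hxS⟩ := hmemS _ hu2 _ hw2
        show u' * w ∈ MulAut.conj a • (S.map N.subtype)
        rw [mem_conj]
        refine ⟨⟨_, hxN⟩, hxS, ?_⟩
        show a⁻¹ * u' * a * (a⁻¹ * w * a) = a⁻¹ * (u' * w) * a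
        group
  obtain ⟨N', hN'n, hN't, hN'⟩ := Cfsg.Agent.S0566.result P Q hP1 hQ1 hkegel
  rcases hM.simple N' hN'n with e | e
  · rcases hN' with h1 | h1
    · exact hP1 (le_bot_iff.mp (e ▸ h1))
    · exact hQ1 (le_bot_iff.mp (e ▸ h1))
  · exact hN't e

/-- A nontrivial `q`-subgroup (`q ∤ |A|`) is never normalized by a nontrivial Sylow subgroup of
`A`. -/
theorem no_q [Finite G] (hM : Min G) {A B : Subgroup G} (h : Fac A B) {p : ℕ} [Fact p.Prime]
    {P : Subgroup G} (hP : SylOf A p P) (hP1 : P ≠ ⊥) {q : ℕ} [Fact q.Prime]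
    (hq : ¬ q ∣ Nat.card A) {T : Subgroup G} (hT : IsPGroup q T) (hT1 : T ≠ ⊥)
    (hN : P ≤ Subgroup.normalizer (T : Set G)) : False := by
  have hqT : q ∣ Nat.card T := by
    obtain ⟨n, hn⟩ := IsPGroup.iff_card.mp hT
    have hn0 : n ≠ 0 := by
      rintro rfl
      rw [pow_zero] at hn
      exact hT1 ((Subgroup.eq_bot_iff_card T).mpr hn)
    rw [hn]; exact dvd_pow_self q hn0
  have hqG : q ∣ Nat.card G := hqT.trans (Subgroup.card_subgroup_dvd_card T)
  have hqB : q ∣ Nat.card B := by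
    rw [← h.card_mul] at hqG
    exact ((Nat.Prime.dvd_mul Fact.out).mp hqG).resolve_left hq
  obtain ⟨Q, hQ, hQ1⟩ := exists_sylOf h.symm q hqB
  obtain ⟨s, hs, hsq, hsB⟩ := exists_other_prime hM h.symm q
  haveI : Fact s.Prime := ⟨hs⟩
  obtain ⟨S, hS, hS1⟩ := exists_sylOf h.symm s hsB
  obtain ⟨g, hg⟩ : ∃ g : G, T ≤ MulAut.conj g • Q := sylow_conj_le hQ.pg hQ.ind hT
  have hgen := gen_top hM (h.conj_right g) hP (hS.conj g) hP1 (conj_ne_bot hS1)
  have hcent : MulAut.conj g • S ≤ Subgroup.normalizer (T : Set G) := by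
    intro y hy
    apply Subgroup.centralizer_le_normalizer
    rw [Subgroup.mem_centralizer_iff]
    intro t ht
    have ht' := mem_conj.mp (hg ht)
    have hy' := mem_conj.mp hy
    have h1 := hQ.commute hS (fun e => hsq e.symm) ht' hy'
    have e1 : t * y = g * ((g⁻¹ * t * g) * (g⁻¹ * y * g)) * g⁻¹ := by group
    have e2 : y * t = g * ((g⁻¹ * y * g) * (g⁻¹ * t * g)) * g⁻¹ := by group
    rw [e1, e2, h1]
  have hTn : Subgroup.normalizer (T : Set G) = ⊤ := top_le_iff.mp (hgen ▸ sup_le hN hcent)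
  rcases hM.simple T (Subgroup.normalizer_eq_top_iff.mp hTn) with e | e
  · exact hT1 e
  · have hpq : p ≠ q := by
      rintro rfl
      exact hq (hP.dvd_card hP1)
    have h1 : Disjoint P T := IsPGroup.disjoint_of_ne p q hpq P T hP.pg hT
    rw [e, disjoint_top] at h1
    exact hP1 h1

theorem pow_card_eq_one_of_centralizes [Finite G] (hM : Min G) {A B : Subgroup G} (h : Fac A B)
    {r : ℕ} [Fact r.Prime] {R : Subgroup G} (hR : SylOf A r R) (hR1 : R ≠ ⊥) {c : G}
    (hc : c ∈ Subgroup.centralizer (R : Set G)) : c ^ Nat.card A = 1 := by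
  by_contra hne
  have hyB : (c ^ Nat.card A) ^ Nat.card B = 1 := by
    rw [← pow_mul, h.card_mul]; exact pow_card_eq_one'
  have ho : orderOf (c ^ Nat.card A) ≠ 1 := fun e => hne (orderOf_eq_one_iff.mp e)
  obtain ⟨q, hq, hqd⟩ := Nat.exists_prime_and_dvd ho
  haveI : Fact q.Prime := ⟨hq⟩
  have hqB : q ∣ Nat.card B := hqd.trans (orderOf_dvd_of_pow_eq_one hyB)
  have hqA : ¬ q ∣ Nat.card A := fun hqA =>
    hq.one_lt.ne' (eq_one_of_dvd_of_coprime h.cop hqA hqB)
  have ho' : orderOf ((c ^ Nat.card A) ^ (orderOf (c ^ Nat.card A) / q)) = q :=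
    orderOf_pow_orderOf_div (orderOf_pos _).ne' hqd
  set y' := (c ^ Nat.card A) ^ (orderOf (c ^ Nat.card A) / q) with hy'
  have hT : IsPGroup q (Subgroup.zpowers y') :=
    IsPGroup.of_card (n := 1) (by rw [Nat.card_zpowers, ho', pow_one])
  have hT1 : Subgroup.zpowers y' ≠ ⊥ := by
    intro e
    rw [Subgroup.zpowers_eq_bot] at e
    rw [e, orderOf_one] at ho'
    exact hq.one_lt.ne ho'
  have hy'c : y' ∈ Subgroup.centralizer (R : Set G) :=
    Subgroup.pow_mem _ (Subgroup.pow_mem _ hc _) _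
  have hN : R ≤ Subgroup.normalizer ((Subgroup.zpowers y' : Subgroup G) : Set G) := by
    intro x hx
    apply Subgroup.centralizer_le_normalizer
    rw [Subgroup.mem_centralizer_iff]
    intro t ht
    have ht' : t ∈ Subgroup.centralizer (R : Set G) := (Subgroup.zpowers_le.mpr hy'c) ht
    exact ((Subgroup.mem_centralizer_iff.mp ht') x hx).symm
  exact no_q hM h hR hR1 hqA hT hT1 hN

theorem centralizer_le [Finite G] (hM : Min G) {A B : Subgroup G} (h : Fac A B) {r : ℕ}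
    [Fact r.Prime] {R : Subgroup G} (hR : SylOf A r R) (hR1 : R ≠ ⊥) :
    Subgroup.centralizer (R : Set G) ≤ A := by
  apply le_of_pi h
  · intro a ha
    apply mem_normalizer_of_conj_le
    intro c hc
    exact conj_mem_centralizer (hR.norm ha) hc
  · intro c hc
    exact pow_card_eq_one_of_centralizes hM h hR hR1 hc

theorem normalizer_le [Finite G] (hM : Min G) {A B : Subgroup G} (h : Fac A B) {r : ℕ}
    [Fact r.Prime] {R : Subgroup G} (hR : SylOf A r R) (hR1 : R ≠ ⊥) :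
    Subgroup.normalizer (R : Set G) ≤ Subgroup.normalizer (A : Set G) := by
  intro n hn
  apply mem_normalizer_of_conj_le
  intro a ha
  have hK : A ⊓ Subgroup.centralizer (R : Set G) ≤ Subgroup.normalizer (R : Set G) :=
    inf_le_left.trans hR.norm
  obtain ⟨u, hu, c, hc, rfl⟩ := exists_mul_of_mem_sup R _ hK (hR.le_sup_centralizer h ha)
  have h1 : n * u * n⁻¹ ∈ A := hR.le ((Subgroup.mem_normalizer_iff.mp hn u).mp hu)
  have h2 : n * c * n⁻¹ ∈ A := centralizer_le hM h hR hR1 (conj_mem_centralizer hn hc.2)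
  have e : n * (u * c) * n⁻¹ = (n * u * n⁻¹) * (n * c * n⁻¹) := by group
  rw [e]; exact A.mul_mem h1 h2

end Cfsg.Agent.Helper9.KW
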