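-- helper9: the Klein four-subgroup generated by two commuting involutions (after helper12's S0807.kv),
-- plus elements of order three in N(U)/C(U).
import Mathlib

set_option autoImplicit false

namespace Cfsg.Agent.Helper9

section KleinSub

variable {G : Type*} [Group G]

/-- The subgroup `{1, a, b, ab}` generated by two commuting involutions. -/
def kfour (a b : G) (haa : a * a = 1) (hbb : b * b = 1) (hab : a * b = b * a) : Subgroup G where
  carrier := {1, a, b, a * b}
  mul_mem' := by
    have hba : b * a = a * b := hab.symm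
    have haa' : ∀ x : G, a * (a * x) = x := fun x => by rw [← mul_assoc, haa, one_mul]
    have hbb' : ∀ x : G, b * (b * x) = x := fun x => by rw [← mul_assoc, hbb, one_mul]
    have hba' : ∀ x : G, b * (a * x) = a * (b * x) := fun x => by
      rw [← mul_assoc, hba, mul_assoc]
    intro x y hx hy
    rcases hx with rfl | rfl | rfl | rfl <;> rcases hy with rfl | rfl | rfl | rfl <;>
      simp [mul_assoc, haa, hbb, hba, haa', hbb', hba']
  one_mem' := Or.inl rfl
  inv_mem' := by
    have hai : a⁻¹ = a := inv_eq_of_mul_eq_one_right haa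
    have hbi : b⁻¹ = b := inv_eq_of_mul_eq_one_right hbb
    have hba : b * a = a * b := hab.symm
    intro x hx
    rcases hx with rfl | rfl | rfl | rfl <;> simp [mul_inv_rev, hai, hbi, hba]

theorem mem_kfour {a b : G} {haa : a * a = 1} {hbb : b * b = 1} {hab : a * b = b * a} {x : G} :
    x ∈ kfour a b haa hbb hab ↔ x = 1 ∨ x = a ∨ x = b ∨ x = a * b := Iff.rfl

theorem kfour_mul_self (a b : G) (haa : a * a = 1) (hbb : b * b = 1) (hab : a * b = b * a)
    (x : G) (hx : x ∈ kfour a b haa hbb hab) : x * x = 1 := by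
  rcases mem_kfour.mp hx with h | h | h | h
  · rw [h, one_mul]
  · rw [h, haa]
  · rw [h, hbb]
  · rw [h]
    calc a * b * (a * b) = a * (b * a) * b := by group
      _ = a * (a * b) * b := by rw [← hab]
      _ = (a * a) * (b * b) := by group
      _ = 1 := by rw [haa, hbb, one_mul]

theorem isKleinFour_kfour (a b : G) (haa : a * a = 1) (hbb : b * b = 1) (hab : a * b = b * a)
    (ha : a ≠ 1) (hb : b ≠ 1) (hne : a ≠ b) : IsKleinFour (kfour a b haa hbb hab) := by
  constructor
  · show Nat.card (({1, a, b, a * b} : Set G)) = 4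
    have h1 : (1 : G) ∉ ({a, b, a * b} : Set G) := by
      intro h
      rcases h with h | h | h
      · exact ha h.symm
      · exact hb h.symm
      · have h' : (1 : G) = a * b := h
        exact hne (mul_left_cancel (haa.trans h'))
    have h2 : a ∉ ({b, a * b} : Set G) := by
      intro h
      rcases h with h | h
      · exact hne h
      · have h' : a = a * b := h
        exact hb (mul_left_cancel ((mul_one a).trans h')).symm
    have h3 : b ≠ a * b := by
      intro h
      exact ha (mul_right_cancel ((one_mul b).trans h)).symm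
    have e1 := Set.ncard_insert_of_notMem h1
    have e2 := Set.ncard_insert_of_notMem h2
    have e3 := Set.ncard_pair h3
    rw [Nat.card_coe_set_eq]
    omega
  · have hdvd : Monoid.exponent ↥(kfour a b haa hbb hab) ∣ 2 := by
      apply Monoid.exponent_dvd_of_forall_pow_eq_one
      intro x
      apply Subtype.ext
      rw [Subgroup.coe_pow, Subgroup.coe_one, pow_two]
      exact kfour_mul_self a b haa hbb hab x.1 x.2
    rcases (Nat.dvd_prime Nat.prime_two).mp hdvd with h1 | h2
    · exfalso
      have hss : Subsingleton ↥(kfour a b haa hbb hab) := Monoid.exp_eq_one_iff.mp h1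
      have hmem : a ∈ kfour a b haa hbb hab := Or.inr (Or.inl rfl)
      have h := congrArg Subtype.val
        (Subsingleton.elim (⟨a, hmem⟩ : ↥(kfour a b haa hbb hab)) 1)
      exact ha h
    · exact h2

/-- If `g` has odd order and `g²` centralizes `u`, then `g` centralizes `u`. -/
theorem conj_eq_of_sq_conj_eq (g u : G) (hodd : Odd (orderOf g))
    (h : g * (g * u * g⁻¹) * g⁻¹ = u) : g * u * g⁻¹ = u := by
  obtain ⟨j, hj⟩ := hodd
  have hc : Commute (g ^ 2) u := by
    show g ^ 2 * u = u * g ^ 2
    rw [pow_two]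
    calc g * g * u = g * (g * u * g⁻¹) * g⁻¹ * (g * g) := by group
      _ = u * (g * g) := by rw [h]
  have hg : (g ^ 2) ^ (j + 1) = g := by
    rw [← pow_mul, show 2 * (j + 1) = (2 * j + 1) + 1 by ring, ← hj, pow_succ,
      pow_orderOf_eq_one, one_mul]
  have hc2 : Commute g u := by
    have h5 := hc.pow_left (j + 1)
    rwa [hg] at h5
  rw [hc2.eq]
  group

/-- An odd-order element normalizing but not centralizing the four-group `{1, z, y, zy}` fuses
`z` and `y`. -/
theorem kfour_conj (z y : G) (hzz : z * z = 1) (hyy : y * y = 1)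
    (hzy : z * y = y * z) (hz1 : z ≠ 1) (hy1 : y ≠ 1) (hne : z ≠ y) (g : G)
    (hgN : g ∈ Subgroup.normalizer ((kfour z y hzz hyy hzy : Subgroup G) : Set G))
    (hgC : g ∉ Subgroup.centralizer ((kfour z y hzz hyy hzy : Subgroup G) : Set G))
    (hodd : Odd (orderOf g)) : IsConj z y := by
  have hn : ∀ u ∈ kfour z y hzz hyy hzy, g * u * g⁻¹ ∈ kfour z y hzz hyy hzy :=
    fun u hu => (Subgroup.mem_normalizer_iff.1 hgN u).1 hu
  have hσz := mem_kfour.1 (hn z (mem_kfour.2 (Or.inr (Or.inl rfl))))
  have hσy := mem_kfour.1 (hn y (mem_kfour.2 (Or.inr (Or.inr (Or.inl rfl)))))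
  have hinj : ∀ u v : G, g * u * g⁻¹ = g * v * g⁻¹ → u = v :=
    fun u v h => mul_left_cancel (mul_right_cancel h)
  have hone : ∀ u : G, g * u * g⁻¹ = 1 → u = 1 := by
    intro u h
    have h' : g * u * g⁻¹ = g * 1 * g⁻¹ := by rw [h]; group
    exact hinj u 1 h'
  have hmulc : g * (z * y) * g⁻¹ = (g * z * g⁻¹) * (g * y * g⁻¹) := by group
  rcases hσz with h1 | h1 | h1 | h1
  · exact absurd (hone z h1) hz1
  · rcases hσy with h2 | h2 | h2 | h2
    · exact absurd (hone y h2) hy1
    · exact absurd (hinj y z (h2.trans h1.symm)) (Ne.symm hne)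
    · exfalso
      apply hgC
      rw [Subgroup.mem_centralizer_iff]
      intro u hu
      have hgz : g * z = z * g := mul_inv_eq_iff_eq_mul.1 h1
      have hgy : g * y = y * g := mul_inv_eq_iff_eq_mul.1 h2
      rcases mem_kfour.1 hu with h | h | h | h
      · rw [h]; simp
      · rw [h]; exact hgz.symm
      · rw [h]; exact hgy.symm
      · rw [h]
        calc z * y * g = z * (y * g) := mul_assoc _ _ _
          _ = z * (g * y) := by rw [← hgy]
          _ = z * g * y := (mul_assoc _ _ _).symm
          _ = g * z * y := by rw [← hgz]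
          _ = g * (z * y) := mul_assoc _ _ _
    · exfalso
      have h3 : g * (g * y * g⁻¹) * g⁻¹ = y := by
        rw [h2, hmulc, h1, h2, ← mul_assoc, hzz, one_mul]
      have h4 := conj_eq_of_sq_conj_eq g y hodd h3
      rw [h2] at h4
      exact hz1 (mul_right_cancel (h4.trans (one_mul y).symm))
  · exact isConj_iff.2 ⟨g, h1⟩
  · rcases hσy with h2 | h2 | h2 | h2
    · exact absurd (hone y h2) hy1
    · exact (isConj_iff.2 ⟨g, h2⟩ : IsConj y z).symm
    · exfalso
      have h3 : g * (g * z * g⁻¹) * g⁻¹ = z := by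
        rw [h1, hmulc, h1, h2, mul_assoc, hyy, mul_one]
      have h4 := conj_eq_of_sq_conj_eq g z hodd h3
      rw [h1] at h4
      exact hy1 (mul_left_cancel (h4.trans (mul_one z).symm))
    · exact absurd (hinj z y (h1.trans h2.symm)) hne

/-- If `3` divides `|N : C ∩ N|` there is an element of odd order in `N` outside `C`. -/
theorem exists_odd_not_mem_of_three_dvd [Finite G] (C N : Subgroup G)
    (h3 : 3 ∣ C.relIndex N) : ∃ g ∈ N, g ∉ C ∧ Odd (orderOf g) := by
  haveI : Fact (Nat.Prime 3) := ⟨Nat.prime_three⟩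
  obtain ⟨T⟩ : Nonempty (Sylow 3 ↥N) := inferInstance
  by_contra hcon
  have hTodd : ∀ t : ↥N, t ∈ (T : Subgroup ↥N) → Odd (orderOf (t : G)) := by
    intro t ht
    obtain ⟨i, hi⟩ := T.isPGroup' ⟨t, ht⟩
    have h1 : (t : G) ^ (3 ^ i) = 1 := by
      have h2 := congrArg (fun s : ↥(T : Subgroup ↥N) => ((s : ↥N) : G)) hi
      simpa using h2
    obtain ⟨l, -, hl⟩ := (Nat.dvd_prime_pow Nat.prime_three).1 (orderOf_dvd_of_pow_eq_one h1)
    rw [hl]
    exact Odd.pow (by decide)
  have hle : (T : Subgroup ↥N) ≤ C.subgroupOf N := by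
    intro t ht
    rw [Subgroup.mem_subgroupOf]
    by_contra hnC
    exact hcon ⟨(t : G), t.2, hnC, hTodd t ht⟩
  have hdvd : Nat.card (T : Subgroup ↥N) ∣ Nat.card (C.subgroupOf N) :=
    Subgroup.card_dvd_of_le hle
  rw [T.card_eq_multiplicity] at hdvd
  have hmul := (C.subgroupOf N).card_mul_index
  have hbad : 3 ^ ((Nat.card ↥N).factorization 3 + 1) ∣ Nat.card ↥N := by
    rw [pow_succ]
    exact (mul_dvd_mul hdvd h3).trans (dvd_of_eq hmul)
  exact Nat.pow_succ_factorization_not_dvd Nat.card_pos.ne' Nat.prime_three hbad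

end KleinSub

end Cfsg.Agent.Helper9
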