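import Cfsg.Agent.Helper9.KW3
import Cfsg.Agent.Helper12.KWRed

/-!
# Kegel–Wielandt, coprime case (helper9), part 4: a product of two nilpotent subgroups of
coprime orders is solvable.
-/

set_option autoImplicit false

namespace Cfsg.Agent.Helper9.KW

universe u

/-- There is no minimal counterexample. -/
theorem no_min {G : Type u} [Group G] [Finite G] (A B : Subgroup G) (hM : Min G)
    (h : Fac A B) : False :=
  Cfsg.Agent.Helper12.KWR.no_min_of_ti A B hM h
    (fun _ _ h' _ hx ho g hg => ti hM h' hx ho g hg)

/-- **Wielandt–Kegel, coprime case**: a finite group which is the product of two nilpotent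
subgroups of coprime orders is solvable. -/
theorem coprime_solvable {G : Type u} [Group G] [Finite G] (A B : Subgroup G)
    (hA : Group.IsNilpotent A) (hB : Group.IsNilpotent B)
    (hcop : (Nat.card A).Coprime (Nat.card B)) (hAB : ∀ g : G, ∃ a ∈ A, ∃ b ∈ B, g = a * b) :
    Group.IsSolvable G :=
  Cfsg.Agent.Helper12.KWR.red (fun _ _ _ A' B' hM h => no_min A' B' hM h) G A B hA hB hcop hAB

end Cfsg.Agent.Helper9.KW
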