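import Mathlib
import Cfsg.Agent.S0564
import Cfsg.Agent.S0572

/-!
# Products of an abelian group and a group of class at most two (helper9)

`G = AB`, `A` abelian, `B' ≤ Z(B)`: the derived length of `G` is at most `2 (1 + Ω(|B'|))`.
The key step: if moreover `G = ⟨A, B'⟩` then `B` is abelian.
-/

set_option autoImplicit false

namespace Cfsg.Agent.Helper9.AC2

open scoped commutatorElement

universe u

variable {G : Type u} [Group G]

/-- The hypotheses in elementwise form. -/
structure Hyp (A B : Subgroup G) : Prop where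
  comm : ∀ x ∈ A, ∀ y ∈ A, x * y = y * x
  cl2 : ∀ x ∈ B, ∀ y ∈ B, ∀ w ∈ B, ⁅x, y⁆ * w = w * ⁅x, y⁆
  fac : ∀ g : G, ∃ a ∈ A, ∃ b ∈ B, g = a * b

theorem Hyp.comm_le_cent {A B : Subgroup G} (h : Hyp A B) :
    ⁅B, B⁆ ≤ Subgroup.centralizer (B : Set G) := by
  rw [Subgroup.commutator_le]
  intro x hx y hy
  rw [Subgroup.mem_centralizer_iff]
  intro w hw
  exact (h.cl2 x hx y hy w hw).symm

theorem nilp_of_cl2 {B : Subgroup G}
    (hB : ∀ x ∈ B, ∀ y ∈ B, ∀ w ∈ B, ⁅x, y⁆ * w = w * ⁅x, y⁆) : Group.IsNilpotent ↥B := by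
  refine ⟨⟨2, ?_⟩⟩
  rw [eq_top_iff]
  intro x _
  show x ∈ Subgroup.upperCentralSeries ↥B (1 + 1)
  rw [Subgroup.mem_upperCentralSeries_succ_iff]
  intro y
  rw [Subgroup.upperCentralSeries_one, Subgroup.mem_center_iff]
  intro w
  apply Subtype.ext
  have e := hB x x.2 y y.2 w w.2
  simpa [commutatorElement_def] using e.symm

theorem cl2_of_comm {A : Subgroup G} (hA : ∀ x ∈ A, ∀ y ∈ A, x * y = y * x) :
    ∀ x ∈ A, ∀ y ∈ A, ∀ w ∈ A, ⁅x, y⁆ * w = w * ⁅x, y⁆ := by
  intro x hx y hy w _
  rw [commutatorElement_eq_one_iff_mul_comm.mpr (hA x hx y hy), one_mul, mul_one]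

theorem comm_of_bot {B : Subgroup G} (h : ⁅B, B⁆ = ⊥) : ∀ x ∈ B, ∀ y ∈ B, x * y = y * x := by
  intro x hx y hy
  have hc := Subgroup.commutator_eq_bot_iff_le_centralizer.mp h
  exact Subgroup.mem_centralizer_iff.mp (hc hy) x hx

theorem ito {A B : Subgroup G} (hA : ∀ x ∈ A, ∀ y ∈ A, x * y = y * x)
    (hB : ∀ x ∈ B, ∀ y ∈ B, x * y = y * x) (hAB : ∀ g : G, ∃ a ∈ A, ∃ b ∈ B, g = a * b) :
    derivedSeries G 2 = ⊥ := by
  haveI : IsMulCommutative A := Subgroup.le_centralizer_iff_isMulCommutative.mp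
    (fun x hx => Subgroup.mem_centralizer_iff.mpr (fun y hy => hA y hy x hx))
  haveI : IsMulCommutative B := Subgroup.le_centralizer_iff_isMulCommutative.mp
    (fun x hx => Subgroup.mem_centralizer_iff.mpr (fun y hy => hB y hy x hx))
  exact Cfsg.Agent.S0572.result A B hAB

theorem Hyp.map {A B : Subgroup G} (h : Hyp A B) {H : Type u} [Group H] (f : G →* H)
    (hf : Function.Surjective f) : Hyp (A.map f) (B.map f) := by
  refine ⟨?_, ?_, ?_⟩
  · rintro _ ⟨x, hx, rfl⟩ _ ⟨y, hy, rfl⟩
    rw [← map_mul f, ← map_mul f, h.comm x hx y hy]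
  · rintro _ ⟨x, hx, rfl⟩ _ ⟨y, hy, rfl⟩ _ ⟨w, hw, rfl⟩
    rw [← map_commutatorElement f x y, ← map_mul f, ← map_mul f, h.cl2 x hx y hy w hw]
  · intro g
    obtain ⟨g0, rfl⟩ := hf g
    obtain ⟨a, ha, b, hb, rfl⟩ := h.fac g0
    exact ⟨f a, ⟨a, ha, rfl⟩, f b, ⟨b, hb, rfl⟩, map_mul f a b⟩

theorem exists_abelian_normal [Group.IsSolvable G] [Nontrivial G] :
    ∃ R : Subgroup G, R.Normal ∧ R ≠ ⊥ ∧ ⁅R, R⁆ = ⊥ := by
  obtain ⟨n, hn⟩ := (Group.isSolvable_def G).mp inferInstance
  induction n with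
  | zero =>
    exfalso
    rw [derivedSeries_zero] at hn
    exact top_ne_bot hn
  | succ n ih =>
    by_cases h0 : derivedSeries G n = ⊥
    · exact ih h0
    · exact ⟨derivedSeries G n, derivedSeries_normal G n, h0, by
        rw [← derivedSeries_succ]; exact hn⟩

/-- If `G = AB = ⟨A, B'⟩` with `A` abelian and `B' ≤ Z(B)`, then `B` is abelian. -/
theorem claim_aux : ∀ (n : ℕ) (G : Type u) [Group G] [Finite G], Nat.card G = n →
    ∀ (A B : Subgroup G), Hyp A B → A ⊔ ⁅B, B⁆ = ⊤ → ⁅B, B⁆ = ⊥ := by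
  intro n
  induction n using Nat.strong_induction_on with
  | _ n ih =>
    intro G _ _ hn A B h hgen
    by_contra hne
    haveI : Nontrivial G := by
      by_contra hnt
      rw [not_nontrivial_iff_subsingleton] at hnt
      exact hne ((Subgroup.eq_bot_iff_forall _).mpr (fun x _ => Subsingleton.elim x 1))
    haveI : Group.IsSolvable G :=
      Cfsg.Agent.S0564.result A B (nilp_of_cl2 (cl2_of_comm h.comm)) (nilp_of_cl2 h.cl2) h.fac
    obtain ⟨R0, hR0n, hR0ne, hR0ab⟩ := exists_abelian_normal (G := G)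
    -- every nontrivial normal subgroup contains `B'`
    have hstar : ∀ R : Subgroup G, R.Normal → R ≠ ⊥ → ⁅B, B⁆ ≤ R := by
      intro R hRn hR
      haveI := hRn
      have hlt : Nat.card (G ⧸ R) < n := by
        have h1 := Subgroup.card_mul_index R
        rw [Subgroup.index_eq_card] at h1
        have h2 : 1 < Nat.card R := (Subgroup.one_lt_card_iff_ne_bot R).mpr hR
        have h3 : 0 < Nat.card (G ⧸ R) := Nat.card_pos
        rw [← hn, ← h1]
        nlinarith
      have hq := ih _ hlt (G ⧸ R) rfl (A.map (QuotientGroup.mk' R)) (B.map (QuotientGroup.mk' R))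
        (h.map _ (QuotientGroup.mk'_surjective R)) (by
          rw [← Subgroup.map_commutator, ← Subgroup.map_sup, hgen]
          exact Subgroup.map_top_of_surjective _ (QuotientGroup.mk'_surjective R))
      rw [← Subgroup.map_commutator, Subgroup.map_eq_bot_iff, QuotientGroup.ker_mk'] at hq
      exact hq
    obtain ⟨N, hNn, hBN, hNmin⟩ : ∃ N : Subgroup G, N.Normal ∧ ⁅B, B⁆ ≤ N ∧
        ∀ R : Subgroup G, R.Normal → ⁅B, B⁆ ≤ R → N ≤ R :=
      ⟨Subgroup.normalClosure ((⁅B, B⁆ : Subgroup G) : Set G), Subgroup.normalClosure_normal,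
        Subgroup.le_normalClosure, fun R hR hle => by
          haveI := hR
          exact Subgroup.normalClosure_le_normal (SetLike.coe_subset_coe.mpr hle)⟩
    haveI := hNn
    have hNab : ∀ x ∈ N, ∀ y ∈ N, x * y = y * x := by
      intro x hx y hy
      have hc := Subgroup.commutator_eq_bot_iff_le_centralizer.mp hR0ab
      have hNR := hNmin R0 hR0n (hstar R0 hR0n hR0ne)
      exact Subgroup.mem_centralizer_iff.mp (hc (hNR hy)) x (hNR hx)
    have hfacN : ∀ g : G, ∃ x ∈ N, ∃ a ∈ A, g = x * a := by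
      intro g
      have hg : g ∈ N ⊔ A := by
        have hle : A ⊔ ⁅B, B⁆ ≤ N ⊔ A := sup_le le_sup_right (hBN.trans le_sup_left)
        apply hle
        rw [hgen]
        exact Subgroup.mem_top g
      have hg' : g ∈ (↑(N ⊔ A) : Set G) := hg
      rw [Subgroup.normal_mul N A] at hg'
      obtain ⟨x, hx, a, ha, e⟩ := Set.mem_mul.mp hg'
      exact ⟨x, hx, a, ha, e.symm⟩
    obtain ⟨⟨z, hz⟩, hz1⟩ := (Subgroup.ne_bot_iff_exists_ne_one).mp hne
    have hz1' : z ≠ 1 := fun e => hz1 (Subtype.ext e)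
    have hzN : z ∈ N := hBN hz
    have hdecomp : ∀ b ∈ B, ∃ x ∈ N, ∃ a ∈ A, b = x * a ∧ ∀ y ∈ N, a * y = y * a := by
      intro b hb
      obtain ⟨x, hx, a, ha, hbxa⟩ := hfacN b
      refine ⟨x, hx, a, ha, hbxa, ?_⟩
      have hbz : b * z = z * b := Subgroup.mem_centralizer_iff.mp (h.comm_le_cent hz) b hb
      have hxz : x⁻¹ * z = z * x⁻¹ := by
        have e := hNab x hx z hzN
        calc x⁻¹ * z = x⁻¹ * (z * x) * x⁻¹ := by group
          _ = x⁻¹ * (x * z) * x⁻¹ := by rw [e]
          _ = z * x⁻¹ := by group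
      have ea : a = x⁻¹ * b := by rw [hbxa]; group
      have haz : a * z = z * a := by
        calc a * z = x⁻¹ * (b * z) := by rw [ea]; group
          _ = x⁻¹ * (z * b) := by rw [hbz]
          _ = (x⁻¹ * z) * b := by group
          _ = (z * x⁻¹) * b := by rw [hxz]
          _ = z * a := by rw [ea]; group
      have hCn : (N ⊓ Subgroup.centralizer ({a} : Set G)).Normal := by
        refine ⟨fun y hy g => ?_⟩
        obtain ⟨x', hx', a', ha', rfl⟩ := hfacN g
        have hyN : y ∈ N := hy.1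
        have hya : a * y = y * a := Subgroup.mem_centralizer_iff.mp hy.2 a rfl
        have h1 : a' * y * a'⁻¹ ∈ N := hNn.conj_mem y hyN a'
        have h2 : x' * a' * y * (x' * a')⁻¹ = a' * y * a'⁻¹ := by
          have e := hNab x' hx' (a' * y * a'⁻¹) h1
          calc x' * a' * y * (x' * a')⁻¹ = x' * (a' * y * a'⁻¹) * x'⁻¹ := by group
            _ = (a' * y * a'⁻¹) * x' * x'⁻¹ := by rw [e]
            _ = a' * y * a'⁻¹ := by group
        rw [h2]
        refine ⟨h1, ?_⟩
        show a' * y * a'⁻¹ ∈ Subgroup.centralizer ({a} : Set G)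
        rw [Subgroup.mem_centralizer_iff]
        intro w hw
        rw [Set.mem_singleton_iff] at hw
        rw [hw]
        have haa' : a * a' = a' * a := h.comm a ha a' ha'
        have haa'inv : a * a'⁻¹ = a'⁻¹ * a := by
          calc a * a'⁻¹ = a'⁻¹ * (a' * a) * a'⁻¹ := by group
            _ = a'⁻¹ * (a * a') * a'⁻¹ := by rw [haa']
            _ = a'⁻¹ * a := by group
        calc a * (a' * y * a'⁻¹) = (a * a') * y * a'⁻¹ := by group
          _ = (a' * a) * y * a'⁻¹ := by rw [haa']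
          _ = a' * (a * y) * a'⁻¹ := by group
          _ = a' * (y * a) * a'⁻¹ := by rw [hya]
          _ = a' * y * (a * a'⁻¹) := by group
          _ = a' * y * (a'⁻¹ * a) := by rw [haa'inv]
          _ = a' * y * a'⁻¹ * a := by group
      have hzC : z ∈ N ⊓ Subgroup.centralizer ({a} : Set G) := by
        refine ⟨hzN, ?_⟩
        show z ∈ Subgroup.centralizer ({a} : Set G)
        rw [Subgroup.mem_centralizer_iff]
        intro w hw
        rw [Set.mem_singleton_iff] at hw
        rw [hw]; exact haz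
      have hCne : N ⊓ Subgroup.centralizer ({a} : Set G) ≠ ⊥ := by
        intro e
        rw [e, Subgroup.mem_bot] at hzC
        exact hz1' hzC
      have hNC : N ≤ N ⊓ Subgroup.centralizer ({a} : Set G) :=
        hNmin _ hCn (hstar _ hCn hCne)
      intro y hy
      exact Subgroup.mem_centralizer_iff.mp (hNC hy).2 a rfl
    apply hne
    rw [Subgroup.commutator_eq_bot_iff_le_centralizer]
    intro b1 hb1
    rw [Subgroup.mem_centralizer_iff]
    intro b2 hb2
    obtain ⟨x1, hx1, a1, ha1, rfl, hc1⟩ := hdecomp b1 hb1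
    obtain ⟨x2, hx2, a2, ha2, rfl, hc2⟩ := hdecomp b2 hb2
    have e1 := hc2 x1 hx1
    have e2 := hc1 x2 hx2
    have e3 := hNab x1 hx1 x2 hx2
    have e4 := h.comm a1 ha1 a2 ha2
    calc x2 * a2 * (x1 * a1) = x2 * (a2 * x1) * a1 := by group
      _ = x2 * (x1 * a2) * a1 := by rw [e1]
      _ = (x2 * x1) * (a2 * a1) := by group
      _ = (x1 * x2) * (a1 * a2) := by rw [e3, e4]
      _ = x1 * (x2 * a1) * a2 := by group
      _ = x1 * (a1 * x2) * a2 := by rw [e2]
      _ = x1 * a1 * (x2 * a2) := by group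

theorem claim {G : Type u} [Group G] [Finite G] (A B : Subgroup G) (h : Hyp A B)
    (hgen : A ⊔ ⁅B, B⁆ = ⊤) : ⁅B, B⁆ = ⊥ :=
  claim_aux _ G rfl A B h hgen

theorem omega_lt {d n : ℕ} (hn : n ≠ 0) (hd : d ∣ n) (hne : d ≠ n) :
    d.primeFactorsList.length < n.primeFactorsList.length := by
  obtain ⟨m, rfl⟩ := hd
  have hd0 : d ≠ 0 := fun e => hn (by rw [e, zero_mul])
  have hm0 : m ≠ 0 := fun e => hn (by rw [e, mul_zero])
  have hm1 : m ≠ 1 := fun e => hne (by rw [e, mul_one])
  have hperm := Nat.perm_primeFactorsList_mul hd0 hm0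
  rw [hperm.length_eq, List.length_append]
  have hnil : m.primeFactorsList ≠ [] := by
    intro e
    rcases (Nat.primeFactorsList_eq_nil m).mp e with e | e
    · exact hm0 e
    · exact hm1 e
  have hpos := List.length_pos_iff.mpr hnil
  omega

theorem main_aux : ∀ (k : ℕ) (G : Type u) [Group G] [Finite G] (A B : Subgroup G), Hyp A B →
    (Nat.card ↥⁅B, B⁆).primeFactorsList.length ≤ k → derivedSeries G (2 * (1 + k)) = ⊥ := by
  intro k
  induction k with
  | zero =>
    intro G _ _ A B h hk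
    have h1 : ⁅B, B⁆ = ⊥ := by
      have hl : (Nat.card ↥⁅B, B⁆).primeFactorsList = [] :=
        List.length_eq_zero_iff.mp (Nat.le_zero.mp hk)
      rcases (Nat.primeFactorsList_eq_nil _).mp hl with e | e
      · exact absurd e Nat.card_pos.ne'
      · exact (Subgroup.eq_bot_iff_card _).mpr e
    exact ito h.comm (comm_of_bot h1) h.fac
  | succ k ih =>
    intro G _ _ A B h hk
    by_cases h1 : ⁅B, B⁆ = ⊥
    · have h2 := ito h.comm (comm_of_bot h1) h.fac
      have h3 : derivedSeries G (2 * (1 + (k + 1))) ≤ derivedSeries G 2 :=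
        (derivedSeries_antitone (G := G)) (by omega)
      rw [h2] at h3
      exact le_bot_iff.mp h3
    · have hcent := h.comm_le_cent
      have hstep1 : derivedSeries G 2 ≤ A ⊔ ⁅B, B⁆ := by
        haveI hNn : (Subgroup.normalClosure ((⁅B, B⁆ : Subgroup G) : Set G)).Normal :=
          Subgroup.normalClosure_normal
        have hBN : ⁅B, B⁆ ≤ Subgroup.normalClosure ((⁅B, B⁆ : Subgroup G) : Set G) := Subgroup.le_normalClosure
        have hq : derivedSeries (G ⧸ Subgroup.normalClosure ((⁅B, B⁆ : Subgroup G) : Set G)) 2 = ⊥ := by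
          have hm := h.map (QuotientGroup.mk' (Subgroup.normalClosure ((⁅B, B⁆ : Subgroup G) : Set G)))
            (QuotientGroup.mk'_surjective _)
          apply ito hm.comm ?_ hm.fac
          rintro _ ⟨x, hx, rfl⟩ _ ⟨y, hy, rfl⟩
          rw [← commutatorElement_eq_one_iff_mul_comm, ← map_commutatorElement]
          exact (QuotientGroup.eq_one_iff _).mpr (hBN (Subgroup.commutator_mem_commutator hx hy))
        have h2 := map_derivedSeries_le_derivedSeries
          (QuotientGroup.mk' (Subgroup.normalClosure ((⁅B, B⁆ : Subgroup G) : Set G))) 2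
        rw [hq, le_bot_iff, Subgroup.map_eq_bot_iff, QuotientGroup.ker_mk'] at h2
        refine h2.trans ?_
        rw [Subgroup.normalClosure, Subgroup.closure_le]
        intro w hw
        rw [Group.mem_conjugatesOfSet_iff] at hw
        obtain ⟨c, hc, hconj⟩ := hw
        rw [isConj_iff] at hconj
        obtain ⟨g, rfl⟩ := hconj
        obtain ⟨a, ha, b, hb, rfl⟩ := h.fac g
        have hbc : b * c = c * b := Subgroup.mem_centralizer_iff.mp (hcent hc) b hb
        have e : a * b * c * (a * b)⁻¹ = a * c * a⁻¹ := by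
          calc a * b * c * (a * b)⁻¹ = a * (b * c) * b⁻¹ * a⁻¹ := by group
            _ = a * (c * b) * b⁻¹ * a⁻¹ := by rw [hbc]
            _ = a * c * a⁻¹ := by group
        show a * b * c * (a * b)⁻¹ ∈ A ⊔ ⁅B, B⁆
        rw [e]
        exact Subgroup.mul_mem _ (Subgroup.mul_mem _ (Subgroup.mem_sup_left ha)
          (Subgroup.mem_sup_right hc)) (Subgroup.inv_mem _ (Subgroup.mem_sup_left ha))
      obtain ⟨X, hXdef⟩ : ∃ X : Subgroup G, X = A ⊔ ⁅B, B⁆ := ⟨_, rfl⟩
      have hAX : A ≤ X := hXdef ▸ le_sup_left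
      rw [← hXdef] at hstep1
      have hB0le : X ⊓ B ≤ X := inf_le_left
      have hHyp : Hyp (A.subgroupOf X) ((X ⊓ B).subgroupOf X) := by
        refine ⟨?_, ?_, ?_⟩
        · intro x hx y hy
          apply Subtype.ext
          exact h.comm (x : G) (Subgroup.mem_subgroupOf.mp hx) (y : G)
            (Subgroup.mem_subgroupOf.mp hy)
        · intro x hx y hy w hw
          apply Subtype.ext
          have e := h.cl2 (x : G) (Subgroup.mem_subgroupOf.mp hx).2 (y : G)
            (Subgroup.mem_subgroupOf.mp hy).2 (w : G) (Subgroup.mem_subgroupOf.mp hw).2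
          simpa [commutatorElement_def] using e
        · intro x
          obtain ⟨a, ha, b, hb, e⟩ := h.fac (x : G)
          have hbX : b ∈ X := by
            have eb : b = a⁻¹ * (x : G) := by rw [e]; group
            rw [eb]; exact X.mul_mem (X.inv_mem (hAX ha)) x.2
          exact ⟨⟨a, hAX ha⟩, Subgroup.mem_subgroupOf.mpr ha, ⟨b, hbX⟩,
            Subgroup.mem_subgroupOf.mpr ⟨hbX, hb⟩, Subtype.ext e⟩
      have hmapB : ((X ⊓ B).subgroupOf X).map X.subtype = X ⊓ B :=
        Subgroup.map_subgroupOf_eq_of_le hB0le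
      have hmapA : (A.subgroupOf X).map X.subtype = A := Subgroup.map_subgroupOf_eq_of_le hAX
      have hmapC : (⁅(X ⊓ B).subgroupOf X, (X ⊓ B).subgroupOf X⁆).map X.subtype =
          ⁅X ⊓ B, X ⊓ B⁆ := by
        rw [Subgroup.map_commutator, hmapB]
      have hcard : Nat.card ↥⁅(X ⊓ B).subgroupOf X, (X ⊓ B).subgroupOf X⁆ =
          Nat.card ↥⁅X ⊓ B, X ⊓ B⁆ := by
        rw [← hmapC]; exact (Subgroup.card_map_of_injective X.subtype_injective).symm
      have hle : ⁅X ⊓ B, X ⊓ B⁆ ≤ ⁅B, B⁆ := Subgroup.commutator_mono inf_le_right inf_le_right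
      have hneq : ⁅X ⊓ B, X ⊓ B⁆ ≠ ⁅B, B⁆ := by
        intro e
        have hgenX : A.subgroupOf X ⊔ ⁅(X ⊓ B).subgroupOf X, (X ⊓ B).subgroupOf X⁆ = ⊤ := by
          apply Subgroup.map_injective X.subtype_injective
          rw [Subgroup.map_sup, hmapA, hmapC, e, ← hXdef, ← MonoidHom.range_eq_map,
            Subgroup.range_subtype]
        have hc := claim _ _ hHyp hgenX
        have hbot : ⁅X ⊓ B, X ⊓ B⁆ = ⊥ := by rw [← hmapC, hc, Subgroup.map_bot]
        rw [e] at hbot
        exact h1 hbot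
      have hk' : (Nat.card ↥⁅(X ⊓ B).subgroupOf X, (X ⊓ B).subgroupOf X⁆).primeFactorsList.length
          ≤ k := by
        rw [hcard]
        have hdvd : Nat.card ↥⁅X ⊓ B, X ⊓ B⁆ ∣ Nat.card ↥⁅B, B⁆ := Subgroup.card_dvd_of_le hle
        have hcne : Nat.card ↥⁅X ⊓ B, X ⊓ B⁆ ≠ Nat.card ↥⁅B, B⁆ := by
          intro e
          exact hneq (Subgroup.eq_of_le_of_card_ge hle e.ge)
        have hlt := omega_lt Nat.card_pos.ne' hdvd hcne
        omega
      have hX := ih ↥X (A.subgroupOf X) ((X ⊓ B).subgroupOf X) hHyp hk'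
      have hkey : ∀ j : ℕ, derivedSeries G (2 + j) ≤ (derivedSeries ↥X j).map X.subtype := by
        intro j
        induction j with
        | zero =>
          rw [derivedSeries_zero, ← MonoidHom.range_eq_map, Subgroup.range_subtype]
          exact hstep1
        | succ j ihj =>
          rw [← add_assoc, derivedSeries_succ, derivedSeries_succ, Subgroup.map_commutator]
          exact Subgroup.commutator_mono ihj ihj
      have e2 : 2 * (1 + (k + 1)) = 2 + 2 * (1 + k) := by ring
      rw [e2]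
      have hfin := hkey (2 * (1 + k))
      rw [hX, Subgroup.map_bot] at hfin
      exact le_bot_iff.mp hfin

/-- `G = AB`, `A` abelian, `B` of class at most two: derived length at most `2(1 + Ω(|B'|))`. -/
theorem main {G : Type u} [Group G] [Finite G] (A B : Subgroup G) [IsMulCommutative A]
    (hB : commutator ↥B ≤ Subgroup.center ↥B) (hAB : ∀ g : G, ∃ a ∈ A, ∃ b ∈ B, g = a * b) :
    derivedSeries G (2 * (1 + (Nat.card ↥(commutator ↥B)).primeFactorsList.length)) = ⊥ := by
  have h : Hyp A B := by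
    refine ⟨?_, ?_, hAB⟩
    · intro x hx y hy
      have hc : A ≤ Subgroup.centralizer (A : Set G) :=
        Subgroup.le_centralizer_iff_isMulCommutative.mpr inferInstance
      exact Subgroup.mem_centralizer_iff.mp (hc hy) x hx
    · intro x hx y hy w hw
      have h1 : ⁅(⟨x, hx⟩ : B), ⟨y, hy⟩⁆ ∈ commutator ↥B :=
        Subgroup.commutator_mem_commutator (Subgroup.mem_top _) (Subgroup.mem_top _)
      have h2 := Subgroup.mem_center_iff.mp (hB h1) ⟨w, hw⟩
      have h3 := congrArg Subtype.val h2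
      simpa [commutatorElement_def] using h3.symm
  have hcard : Nat.card ↥(commutator ↥B) = Nat.card ↥⁅B, B⁆ := by
    rw [← Subgroup.map_subtype_commutator B]
    exact (Subgroup.card_map_of_injective B.subtype_injective).symm
  rw [hcard]
  exact main_aux _ G A B h le_rfl

end Cfsg.Agent.Helper9.AC2
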