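/-
Amalgam method: the iterated closures `V_δ^{(n)}` on the coset graph of an amalgam pair with
strongly `p`-embedded residues, and non-centrality of `O^p(L_δ)` on their sections.
-/
import Mathlib
import Cfsg.Prelude.Def_LocalStructure
import Cfsg.Agent.Helper9.AmalCrit
import Cfsg.Agent.Helper10.SylowRel

set_option autoImplicit false

namespace Cfsg.Agent.Helper9.Amal

open Cfsg Cfsg.Agent.Helper14

open scoped commutatorElement

variable {X : Type*} [Group X]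

theorem le_normalizer_of_conj_mem (M K : Subgroup X) (h : ∀ m ∈ M, ∀ k ∈ K, m * k * m⁻¹ ∈ K) :
    M ≤ Subgroup.normalizer (K : Set X) := by
  intro m hm
  rw [Subgroup.mem_normalizer_iff]
  intro v
  constructor
  · intro hv
    exact h m hm v hv
  · intro hv
    have h4 := h m⁻¹ (M.inv_mem hm) _ hv
    have e : m⁻¹ * (m * v * m⁻¹) * m⁻¹⁻¹ = v := by group
    rw [e] at h4
    exact h4

/-- Elements of `A ⊔ B` are products `a * b` when `B` normalizes `A`. -/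
theorem exists_mul_of_mem_sup' (A B : Subgroup X) (h : ∀ b ∈ B, ∀ a ∈ A, b * a * b⁻¹ ∈ A)
    {w : X} (hw : w ∈ A ⊔ B) : ∃ a ∈ A, ∃ b ∈ B, w = a * b := by
  let S : Subgroup X :=
    { carrier := {w | ∃ a ∈ A, ∃ b ∈ B, w = a * b}
      one_mem' := ⟨1, A.one_mem, 1, B.one_mem, (one_mul 1).symm⟩
      mul_mem' := by
        rintro _ _ ⟨a, ha, b, hb, rfl⟩ ⟨a', ha', b', hb', rfl⟩
        exact ⟨a * (b * a' * b⁻¹), A.mul_mem ha (h b hb a' ha'), b * b', B.mul_mem hb hb',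
          by group⟩
      inv_mem' := by
        rintro _ ⟨a, ha, b, hb, rfl⟩
        exact ⟨b⁻¹ * a⁻¹ * b⁻¹⁻¹, h b⁻¹ (B.inv_mem hb) a⁻¹ (A.inv_mem ha), b⁻¹,
          B.inv_mem hb, by group⟩ }
  have hS : A ⊔ B ≤ S :=
    sup_le (fun a ha => ⟨a, ha, 1, B.one_mem, (mul_one a).symm⟩)
      (fun b hb => ⟨1, A.one_mem, b, hb, (one_mul b).symm⟩)
  exact hS hw

/-! ### Equivariance -/

theorem Z_map_cj_le {p : ℕ} [Fact p.Prime] (H : Subgroup X) [Finite H] (g : X) :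
    (sylowCenterClosure p H).map (MulAut.conj g).toMonoidHom ≤
      sylowCenterClosure p (H.map (MulAut.conj g).toMonoidHom) := by
  haveI := finite_map_conj H g
  rw [Subgroup.map_le_iff_le_comap]
  apply Z_le_of
  intro T hT
  rw [← Subgroup.map_le_iff_le_comap, OZ_cj]
  exact OZ_le_Z _ _ (hT.cj g)

theorem Z_map_cj {p : ℕ} [Fact p.Prime] (H : Subgroup X) [Finite H] (g : X) :
    sylowCenterClosure p (H.map (MulAut.conj g).toMonoidHom) =
      (sylowCenterClosure p H).map (MulAut.conj g).toMonoidHom := by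
  haveI := finite_map_conj H g
  refine le_antisymm ?_ (Z_map_cj_le H g)
  have h1 := Z_map_cj_le (p := p) (H.map (MulAut.conj g).toMonoidHom) g⁻¹
  rw [cj_cj_inv] at h1
  have h2 := Subgroup.map_mono (f := (MulAut.conj g).toMonoidHom) h1
  rw [cj_inv_cj] at h2
  exact h2

theorem vertexZ_smul {p : ℕ} [Fact p.Prime] (M₁ M₂ : Subgroup X)
    (h : IsCharPAmalgamPair p M₁ M₂) (g : X) (δ : CosetVertex M₁ M₂) :
    vertexZ p (g • δ) = (vertexZ p δ).map (MulAut.conj g).toMonoidHom := by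
  haveI := finite_stab M₁ M₂ h δ
  show sylowCenterClosure p (MulAction.stabilizer X (g • δ)) = _
  rw [MulAction.stabilizer_smul_eq_stabilizer_map_conj]
  exact Z_map_cj _ g

theorem dist_smul_le (M₁ M₂ : Subgroup X) (hc : (cosetGraph M₁ M₂).Connected) (g : X)
    (u v : CosetVertex M₁ M₂) :
    (cosetGraph M₁ M₂).dist (g • u) (g • v) ≤ (cosetGraph M₁ M₂).dist u v := by
  obtain ⟨q, hq⟩ := hc.exists_walk_length_eq_dist u v
  let f : cosetGraph M₁ M₂ →g cosetGraph M₁ M₂ :=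
    ⟨fun w => g • w, fun hadj => cg_adj_smul M₁ M₂ g hadj⟩
  have h1 := SimpleGraph.dist_le (q.map f)
  rw [SimpleGraph.Walk.length_map, hq] at h1
  exact h1

theorem dist_smul (M₁ M₂ : Subgroup X) (hc : (cosetGraph M₁ M₂).Connected) (g : X)
    (u v : CosetVertex M₁ M₂) :
    (cosetGraph M₁ M₂).dist (g • u) (g • v) = (cosetGraph M₁ M₂).dist u v := by
  refine le_antisymm (dist_smul_le M₁ M₂ hc g u v) ?_
  have h1 := dist_smul_le M₁ M₂ hc g⁻¹ (g • u) (g • v)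
  rw [inv_smul_smul, inv_smul_smul] at h1
  exact h1

theorem exists_nbr (M₁ M₂ : Subgroup X) (δ : CosetVertex M₁ M₂) :
    ∃ μ, (cosetGraph M₁ M₂).Adj δ μ := by
  rcases cg_vertex_cases M₁ M₂ δ with ⟨x, rfl⟩ | ⟨x, rfl⟩
  · exact ⟨_, cg_adj_inl_inr M₁ M₂ x⟩
  · exact ⟨_, (cg_adj_inl_inr M₁ M₂ x).symm⟩

/-! ### The iterated closures -/

theorem Z_le_VIter (p : ℕ) (M₁ M₂ : Subgroup X) (n : ℕ) (δ ν : CosetVertex M₁ M₂)
    (h : (cosetGraph M₁ M₂).dist δ ν ≤ n) : vertexZ p ν ≤ vertexVIter p M₁ M₂ n δ := by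
  unfold vertexVIter
  exact le_iSup (fun μ : {μ : CosetVertex M₁ M₂ // (cosetGraph M₁ M₂).dist δ μ ≤ n} =>
    vertexZ p (μ : CosetVertex M₁ M₂)) ⟨ν, h⟩

theorem VIter_le_of (p : ℕ) (M₁ M₂ : Subgroup X) (n : ℕ) (δ : CosetVertex M₁ M₂)
    (K : Subgroup X) (h : ∀ ν, (cosetGraph M₁ M₂).dist δ ν ≤ n → vertexZ p ν ≤ K) :
    vertexVIter p M₁ M₂ n δ ≤ K := by
  unfold vertexVIter
  exact iSup_le (fun μ => h μ.1 μ.2)

theorem VIter_conj_mem {p : ℕ} [Fact p.Prime] (M₁ M₂ : Subgroup X)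
    (h : IsCharPAmalgamPair p M₁ M₂) (n : ℕ) (δ : CosetVertex M₁ M₂) (g : X)
    (hg : g ∈ MulAction.stabilizer X δ) (v : X) (hv : v ∈ vertexVIter p M₁ M₂ n δ) :
    g * v * g⁻¹ ∈ vertexVIter p M₁ M₂ n δ := by
  have hconn := cg_connected M₁ M₂ h.1.1
  have hle : vertexVIter p M₁ M₂ n δ ≤
      (vertexVIter p M₁ M₂ n δ).comap (MulAut.conj g).toMonoidHom := by
    apply VIter_le_of
    intro ν hν
    rw [← Subgroup.map_le_iff_le_comap, ← vertexZ_smul M₁ M₂ h g ν]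
    apply Z_le_VIter
    have h3 := dist_smul M₁ M₂ hconn g δ ν
    rw [MulAction.mem_stabilizer_iff.mp hg] at h3
    rw [h3]
    exact hν
  exact hle hv

theorem VIter_mono_adj (p : ℕ) (M₁ M₂ : Subgroup X) (hc : (cosetGraph M₁ M₂).Connected)
    (k n : ℕ) (hkn : k + 1 ≤ n) (δ μ : CosetVertex M₁ M₂)
    (hadj : (cosetGraph M₁ M₂).Adj δ μ) :
    vertexVIter p M₁ M₂ k μ ≤ vertexVIter p M₁ M₂ n δ := by
  apply VIter_le_of
  intro ν hν
  apply Z_le_VIter
  have h1 : (cosetGraph M₁ M₂).dist δ ν ≤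
      (cosetGraph M₁ M₂).dist δ μ + (cosetGraph M₁ M₂).dist μ ν := hc.dist_triangle
  have h2 : (cosetGraph M₁ M₂).dist δ μ = 1 := SimpleGraph.dist_eq_one_iff_adj.mpr hadj
  omega

/-! ### Nontriviality of `Z_δ` -/

theorem exists_pow_order_p {p : ℕ} [hp : Fact p.Prime] (w : X) (k : ℕ)
    (hk : orderOf w = p ^ k) (hw1 : w ≠ 1) : ∃ j : ℕ, (w ^ p ^ j) ^ p = 1 ∧ w ^ p ^ j ≠ 1 := by
  have hk0 : k ≠ 0 := by
    rintro rfl
    rw [pow_zero] at hk
    exact hw1 (orderOf_eq_one_iff.mp hk)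
  obtain ⟨j, hj⟩ : ∃ j, k = j + 1 := ⟨k - 1, by omega⟩
  subst hj
  refine ⟨j, ?_, ?_⟩
  · rw [← pow_mul, ← pow_succ, ← hk]
    exact pow_orderOf_eq_one w
  · apply pow_ne_one_of_lt_orderOf (pow_ne_zero _ hp.out.ne_zero)
    rw [hk]
    exact Nat.pow_lt_pow_right hp.out.one_lt (Nat.lt_succ_self j)

theorem OZ_ne_bot {p : ℕ} [hp : Fact p.Prime] (T : Subgroup X) [Finite T] (hT : IsPGroup p T)
    (hT1 : T ≠ ⊥) : ∃ u ∈ OZ p T, u ≠ 1 := by
  haveI : Nontrivial ↥T := (Subgroup.nontrivial_iff_ne_bot T).mpr hT1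
  haveI := hT.center_nontrivial
  obtain ⟨z, hz⟩ := exists_ne (1 : ↥(Subgroup.center ↥T))
  have hzc : ∀ t ∈ T, t * ((z : ↥T) : X) = ((z : ↥T) : X) * t := by
    intro t ht
    have h3 := (Subgroup.mem_center_iff.mp z.2) ⟨t, ht⟩
    exact congrArg Subtype.val h3
  have hz1 : ((z : ↥T) : X) ≠ 1 := by
    intro e
    apply hz
    apply Subtype.ext
    apply Subtype.ext
    exact e
  obtain ⟨k, hk⟩ := (IsPGroup.iff_orderOf.mp hT) (z : ↥T)
  rw [← Subgroup.orderOf_coe] at hk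
  obtain ⟨j, hj1, hj2⟩ := exists_pow_order_p _ k hk hz1
  refine ⟨_, mem_OZ p T _ (Subgroup.pow_mem _ (z : ↥T).2 _) ?_ hj1, hj2⟩
  intro t ht
  exact ((show Commute t ((z : ↥T) : X) from hzc t ht).pow_right (p ^ j)).eq

theorem Z_ne_bot {p : ℕ} [hp : Fact p.Prime] (H : Subgroup X) [Finite H]
    (hdvd : p ∣ Nat.card H) : sylowCenterClosure p H ≠ ⊥ := by
  obtain ⟨S⟩ : Nonempty (Sylow p ↥H) := inferInstance
  have hT := isSyl_of_sylow H S
  have hT1 : (S : Subgroup ↥H).map H.subtype ≠ ⊥ := by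
    intro e
    have h1 := hT.2
    rw [e, Subgroup.card_bot] at h1
    have hf : (Nat.card H).factorization p ≠ 0 := by
      have h0 : Nat.card H ≠ 0 := Nat.card_pos.ne'
      have h5 := (hp.out.pow_dvd_iff_le_factorization h0 (k := 1)).mp (by rw [pow_one]; exact hdvd)
      omega
    have h2 : 1 < p ^ (Nat.card H).factorization p := Nat.one_lt_pow hf hp.out.one_lt
    exact absurd h1 (ne_of_lt h2)
  haveI : Finite ↥((S : Subgroup ↥H).map H.subtype) :=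
    Finite.of_injective (Subgroup.inclusion hT.1) (Subgroup.inclusion_injective _)
  obtain ⟨u, hu, hu1⟩ := OZ_ne_bot _ hT.isPGroup hT1
  intro e
  have h3 := OZ_le_Z H _ hT hu
  rw [e] at h3
  exact hu1 (Subgroup.mem_bot.mp h3)

theorem vertexZ_ne_bot {p : ℕ} [Fact p.Prime] (M₁ M₂ : Subgroup X)
    (h : IsCharPAmalgamPair p M₁ M₂) (δ : CosetVertex M₁ M₂) : vertexZ p δ ≠ ⊥ := by
  haveI := finite_stab M₁ M₂ h δ
  apply Z_ne_bot
  obtain ⟨-, hf1, hf2, hd1, hd2, -⟩ := h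
  rcases cg_vertex_cases M₁ M₂ δ with ⟨x, rfl⟩ | ⟨x, rfl⟩
  · rw [cg_stab_inl, card_map_conj]
    exact hd1
  · rw [cg_stab_inr, card_map_conj]
    exact hd2

/-! ### `G_δ = O^p(L_δ) G_{δμ}` -/

theorem exists_mul_resid {p : ℕ} [hp : Fact p.Prime] (H T : Subgroup X) [Finite H]
    (hT : IsSyl p H T) (l : X) (hl : l ∈ pElementClosure p H) :
    ∃ t ∈ T, ∃ r ∈ (pResidual p ↥(pElementClosure p H)).map (pElementClosure p H).subtype,
      l = t * r := by
  have hTL : T ≤ pElementClosure p H := le_pEC H T hT.1 hT.isPGroup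
  have hLH : pElementClosure p H ≤ H := pEC_le p H
  haveI : Finite ↥(pElementClosure p H) :=
    Finite.of_injective (Subgroup.inclusion hLH) (Subgroup.inclusion_injective _)
  have hT1 : IsSyl p (pElementClosure p H) T := hT.mid hTL hLH
  have hc : Nat.card (T.subgroupOf (pElementClosure p H)) =
      p ^ (Nat.card (pElementClosure p H)).factorization p := by
    rw [Nat.card_congr (Subgroup.subgroupOfEquivOfLe hTL).toEquiv, hT1.2]
  have hidx : ¬ p ∣ (T.subgroupOf (pElementClosure p H)).index :=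
    (Sylow.ofCard (T.subgroupOf (pElementClosure p H)) hc).not_dvd_index
  have hsup := Cfsg.Agent.Helper10.sup_pResidual_eq_top
    (T.subgroupOf (pElementClosure p H)) hidx
  haveI := Cfsg.Agent.Helper6.pResidual_normal p ↥(pElementClosure p H)
  have hmem : (⟨l, hl⟩ : ↥(pElementClosure p H)) ∈
      T.subgroupOf (pElementClosure p H) ⊔ pResidual p ↥(pElementClosure p H) := by
    rw [hsup]
    exact Subgroup.mem_top _
  obtain ⟨y, hy, z, hz, hyz⟩ := Subgroup.mem_sup_of_normal_right.mp hmem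
  exact ⟨(y : X), Subgroup.mem_subgroupOf.mp hy, (z : X), ⟨z, hz, rfl⟩,
    (congrArg Subtype.val hyz).symm⟩

theorem gen_step {p : ℕ} [Fact p.Prime] (M₁ M₂ : Subgroup X) (h : IsSpeAmalgamPair p M₁ M₂)
    (lam μ : CosetVertex M₁ M₂) (hadj : (cosetGraph M₁ M₂).Adj lam μ) (K : Subgroup X)
    (hR : ∀ r ∈ (pResidual p ↥(pElementClosure p (MulAction.stabilizer X lam))).map
        (pElementClosure p (MulAction.stabilizer X lam)).subtype, ∀ k ∈ K, r * k * r⁻¹ ∈ K)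
    (hE : ∀ e ∈ MulAction.stabilizer X lam ⊓ MulAction.stabilizer X μ,
      ∀ k ∈ K, e * k * e⁻¹ ∈ K) :
    ∀ g ∈ MulAction.stabilizer X lam, ∀ k ∈ K, g * k * g⁻¹ ∈ K := by
  haveI := finite_stab M₁ M₂ h.1 lam
  haveI : Finite ↥(edgeStabilizer lam μ) :=
    Finite.of_injective
      (Subgroup.inclusion (inf_le_left : edgeStabilizer lam μ ≤ MulAction.stabilizer X lam))
      (Subgroup.inclusion_injective _)
  obtain ⟨S⟩ : Nonempty (Sylow p ↥(edgeStabilizer lam μ)) := inferInstance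
  have hTe := isSyl_of_sylow (edgeStabilizer lam μ) S
  obtain ⟨hTl, -⟩ := edge_syl M₁ M₂ h.1 lam μ hadj _ hTe
  obtain ⟨hB1, -⟩ := spe_adj M₁ M₂ h lam μ hadj _ hTe
  have hRN := le_normalizer_of_conj_mem _ K hR
  have hEN := le_normalizer_of_conj_mem _ K hE
  intro g hg k hk
  obtain ⟨l, hl, hlg⟩ := frattini_pEC _ _ hTl g hg
  have hlgl : l * g ∈ MulAction.stabilizer X lam :=
    (MulAction.stabilizer X lam).mul_mem (pEC_le p _ hl) hg
  have hlgE : l * g ∈ MulAction.stabilizer X lam ⊓ MulAction.stabilizer X μ :=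
    ⟨hlgl, hB1 _ hlgl hlg⟩
  obtain ⟨t, ht, r, hr, hlinv⟩ := exists_mul_resid _ _ hTl l⁻¹
    ((pElementClosure p (MulAction.stabilizer X lam)).inv_mem hl)
  have htE : t ∈ MulAction.stabilizer X lam ⊓ MulAction.stabilizer X μ := hTe.1 ht
  have hgN : g ∈ Subgroup.normalizer (K : Set X) := by
    have e : g = t * r * (l * g) := by
      rw [← hlinv]
      group
    rw [e]
    exact Subgroup.mul_mem _ (Subgroup.mul_mem _ (hEN htE) (hRN hr)) (hEN hlgE)
  exact (Subgroup.mem_normalizer_iff.mp hgN k).mp hk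

theorem resid_conj_mem (V R D K : Subgroup X) (hcomm : ⁅V, R⁆ ≤ D) (hDK : D ≤ K) (hKV : K ≤ V)
    (r : X) (hr : r ∈ R) (k : X) (hk : k ∈ K) : r * k * r⁻¹ ∈ K := by
  have h1 : ⁅k, r⁆ ∈ D := hcomm (Subgroup.commutator_mem_commutator (hKV hk) hr)
  have h2 : (⁅k, r⁆)⁻¹ ∈ K := K.inv_mem (hDK h1)
  have e : r * k * r⁻¹ = (⁅k, r⁆)⁻¹ * k := by
    simp only [commutatorElement_def]
    group
  rw [e]
  exact K.mul_mem h2 hk

/-! ### A nilpotency argument -/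

theorem le_of_le_sup_commutator {p : ℕ} [Fact p.Prime] (Q V W : Subgroup X) [Finite Q]
    (hQ : IsPGroup p Q) (hVQ : V ≤ Q)
    (hQW : ∀ q ∈ Q, ∀ w ∈ W, q * w * q⁻¹ ∈ W) (hV : V ≤ W ⊔ ⁅V, Q⁆) : V ≤ W := by
  haveI : Group.IsNilpotent ↥Q := hQ.isNilpotent
  obtain ⟨c, hc⟩ := (Subgroup.isNilpotent_iff_lowerCentralSeries Q).mp inferInstance
  have hD : ∀ i : ℕ, Q.lowerCentralSeries i ≤ Q := by
    intro i
    induction i with
    | zero =>
      show Q ≤ Q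
      exact le_refl Q
    | succ i ih =>
      show ⁅Q.lowerCentralSeries i, Q⁆ ≤ Q
      rw [Subgroup.commutator_le]
      intro a ha b hb
      rw [commutatorElement_def]
      exact Q.mul_mem (Q.mul_mem (Q.mul_mem (ih ha) hb) (Q.inv_mem (ih ha))) (Q.inv_mem hb)
  have key : ∀ i : ℕ, V ≤ W ⊔ Q.lowerCentralSeries i := by
    intro i
    induction i with
    | zero =>
      show V ≤ W ⊔ Q
      exact hVQ.trans le_sup_right
    | succ i ih =>
      refine hV.trans (sup_le le_sup_left ?_)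
      rw [Subgroup.commutator_le]
      intro v hv q hq
      obtain ⟨w, hw, d, hd, rfl⟩ := exists_mul_of_mem_sup' W (Q.lowerCentralSeries i)
        (fun b hb a ha => hQW b (hD i hb) a ha) (ih hv)
      have e : ⁅w * d, q⁆ = w * ⁅d, q⁆ * (q * w⁻¹ * q⁻¹) := by
        simp only [commutatorElement_def]
        group
      rw [e]
      refine Subgroup.mul_mem _ (Subgroup.mul_mem _ (Subgroup.mem_sup_left hw)
        (Subgroup.mem_sup_right ?_)) (Subgroup.mem_sup_left (hQW q hq _ (W.inv_mem hw)))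
      show ⁅d, q⁆ ∈ ⁅Q.lowerCentralSeries i, Q⁆
      exact Subgroup.commutator_mem_commutator hd hq
  have h1 := key c
  rw [hc, sup_bot_eq] at h1
  exact h1

/-! ### The two statements -/

theorem s2857 {p : ℕ} [Fact p.Prime] (M₁ M₂ : Subgroup X) (h : IsSpeAmalgamPair p M₁ M₂)
    (lam : CosetVertex M₁ M₂) (n : ℕ) (hn : 2 ≤ n)
    (hVQ : vertexVIter p M₁ M₂ n lam ≤ vertexQ p lam) :
    ¬ ⁅vertexVIter p M₁ M₂ n lam,
        ((pResidual p ↥(pElementClosure p (MulAction.stabilizer X lam))).map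
          (pElementClosure p (MulAction.stabilizer X lam)).subtype)⁆ ≤
      vertexVIter p M₁ M₂ (n - 2) lam := by
  intro hcomm
  have hconn := cg_connected M₁ M₂ h.1.1.1
  obtain ⟨μ, hμ⟩ := exists_nbr M₁ M₂ lam
  have hKV : vertexVIter p M₁ M₂ (n - 1) μ ≤ vertexVIter p M₁ M₂ n lam :=
    VIter_mono_adj p M₁ M₂ hconn (n - 1) n (by omega) lam μ hμ
  have hDK : vertexVIter p M₁ M₂ (n - 2) lam ≤ vertexVIter p M₁ M₂ (n - 1) μ :=
    VIter_mono_adj p M₁ M₂ hconn (n - 2) (n - 1) (by omega) μ lam hμ.symm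
  have hR : ∀ r ∈ (pResidual p ↥(pElementClosure p (MulAction.stabilizer X lam))).map
        (pElementClosure p (MulAction.stabilizer X lam)).subtype,
      ∀ k ∈ vertexVIter p M₁ M₂ (n - 1) μ, r * k * r⁻¹ ∈ vertexVIter p M₁ M₂ (n - 1) μ :=
    fun r hr k hk => resid_conj_mem _ _ _ _ hcomm hDK hKV r hr k hk
  have hE : ∀ e ∈ MulAction.stabilizer X lam ⊓ MulAction.stabilizer X μ,
      ∀ k ∈ vertexVIter p M₁ M₂ (n - 1) μ, e * k * e⁻¹ ∈ vertexVIter p M₁ M₂ (n - 1) μ :=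
    fun e he k hk => VIter_conj_mem M₁ M₂ h.1 (n - 1) μ e he.2 k hk
  have h1 := gen_step M₁ M₂ h lam μ hμ _ hR hE
  have h2 : ∀ g ∈ MulAction.stabilizer X μ, ∀ k ∈ vertexVIter p M₁ M₂ (n - 1) μ,
      g * k * g⁻¹ ∈ vertexVIter p M₁ M₂ (n - 1) μ :=
    fun g hg k hk => VIter_conj_mem M₁ M₂ h.1 (n - 1) μ g hg k hk
  have hKedge : vertexVIter p M₁ M₂ (n - 1) μ ≤
      MulAction.stabilizer X lam ⊓ MulAction.stabilizer X μ :=
    (hKV.trans hVQ).trans
      (le_inf (pCoreOf_le p _) (vertexQ_le_stab_of_adj M₁ M₂ h.1 lam μ hμ))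
  have hK0 := edge_trivial M₁ M₂ h.1.1 lam μ hμ _ hKedge h1 h2
  have hZ : vertexZ p μ ≤ vertexVIter p M₁ M₂ (n - 1) μ :=
    Z_le_VIter p M₁ M₂ (n - 1) μ μ (by rw [SimpleGraph.dist_self]; exact Nat.zero_le _)
  rw [hK0] at hZ
  exact vertexZ_ne_bot M₁ M₂ h.1 μ (le_bot_iff.mp hZ)

theorem s2856 {p : ℕ} [Fact p.Prime] (M₁ M₂ : Subgroup X) (h : IsSpeAmalgamPair p M₁ M₂)
    (lam : CosetVertex M₁ M₂) (n : ℕ) (hn : 1 ≤ n) (V : Subgroup X)
    (hV : V = vertexVIter p M₁ M₂ n lam) (hVQ : V ≤ vertexQ p lam) :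
    ¬ ⁅V, ((pResidual p ↥(pElementClosure p (MulAction.stabilizer X lam))).map
          (pElementClosure p (MulAction.stabilizer X lam)).subtype)⁆ ≤
      ⁅V, vertexQ p lam⁆ := by
  intro hcomm
  have hconn := cg_connected M₁ M₂ h.1.1.1
  obtain ⟨μ, hμ⟩ := exists_nbr M₁ M₂ lam
  haveI := finite_stab M₁ M₂ h.1 lam
  haveI := finite_stab M₁ M₂ h.1 μ
  haveI : Finite ↥(edgeStabilizer lam μ) :=
    Finite.of_injective
      (Subgroup.inclusion (inf_le_left : edgeStabilizer lam μ ≤ MulAction.stabilizer X lam))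
      (Subgroup.inclusion_injective _)
  obtain ⟨S₁⟩ : Nonempty (Sylow p ↥(edgeStabilizer lam μ)) := inferInstance
  obtain ⟨hT1l, hT1μ⟩ := edge_syl M₁ M₂ h.1 lam μ hμ _
    (isSyl_of_sylow (edgeStabilizer lam μ) S₁)
  obtain ⟨W, hW⟩ : ∃ W : Subgroup X, W = vertexVIter p M₁ M₂ (n - 1) μ := ⟨_, rfl⟩
  have hWV : W ≤ V := by
    rw [hW, hV]
    exact VIter_mono_adj p M₁ M₂ hconn (n - 1) n (by omega) lam μ hμ
  have hVconj : ∀ g ∈ MulAction.stabilizer X lam, ∀ v ∈ V, g * v * g⁻¹ ∈ V := by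
    intro g hg v hv
    rw [hV] at hv ⊢
    exact VIter_conj_mem M₁ M₂ h.1 n lam g hg v hv
  have hWconj : ∀ g ∈ MulAction.stabilizer X μ, ∀ w ∈ W, g * w * g⁻¹ ∈ W := by
    intro g hg w hw
    rw [hW] at hw ⊢
    exact VIter_conj_mem M₁ M₂ h.1 (n - 1) μ g hg w hw
  have hZμW : vertexZ p μ ≤ W := by
    rw [hW]
    exact Z_le_VIter p M₁ M₂ (n - 1) μ μ (by rw [SimpleGraph.dist_self]; exact Nat.zero_le _)
  have hQl : vertexQ p lam ≤ MulAction.stabilizer X lam := pCoreOf_le p _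
  have hQμ : vertexQ p lam ≤ MulAction.stabilizer X μ :=
    vertexQ_le_stab_of_adj M₁ M₂ h.1 lam μ hμ
  have hDV : ⁅V, vertexQ p lam⁆ ≤ V := by
    rw [Subgroup.commutator_le]
    intro v hv q hq
    have h1 := hVconj q (hQl hq) v⁻¹ (V.inv_mem hv)
    have e : ⁅v, q⁆ = v * (q * v⁻¹ * q⁻¹) := by
      simp only [commutatorElement_def]
      group
    rw [e]
    exact V.mul_mem hv h1
  have hKV : W ⊔ ⁅V, vertexQ p lam⁆ ≤ V := sup_le hWV hDV
  have hR : ∀ r ∈ (pResidual p ↥(pElementClosure p (MulAction.stabilizer X lam))).map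
        (pElementClosure p (MulAction.stabilizer X lam)).subtype,
      ∀ k ∈ W ⊔ ⁅V, vertexQ p lam⁆, r * k * r⁻¹ ∈ W ⊔ ⁅V, vertexQ p lam⁆ :=
    fun r hr k hk => resid_conj_mem _ _ _ _ hcomm le_sup_right hKV r hr k hk
  have hE : ∀ e ∈ MulAction.stabilizer X lam ⊓ MulAction.stabilizer X μ,
      ∀ k ∈ W ⊔ ⁅V, vertexQ p lam⁆, e * k * e⁻¹ ∈ W ⊔ ⁅V, vertexQ p lam⁆ := by
    intro e he k hk
    have hle : W ⊔ ⁅V, vertexQ p lam⁆ ≤
        (W ⊔ ⁅V, vertexQ p lam⁆).comap (MulAut.conj e).toMonoidHom := by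
      rw [← Subgroup.map_le_iff_le_comap, Subgroup.map_sup, Subgroup.map_commutator]
      refine sup_le_sup ?_ (Subgroup.commutator_mono ?_ ?_)
      · rintro _ ⟨w, hw, rfl⟩
        exact hWconj e he.2 w hw
      · rintro _ ⟨v, hv, rfl⟩
        exact hVconj e he.1 v hv
      · rintro _ ⟨q, hq, rfl⟩
        exact pCoreOf_conj_mem p _ e he.1 q hq
    exact hle hk
  have hK := gen_step M₁ M₂ h lam μ hμ _ hR hE
  have hVK' : vertexVIter p M₁ M₂ n lam ≤ W ⊔ ⁅V, vertexQ p lam⁆ := by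
    apply VIter_le_of
    intro ν hν
    rcases Nat.eq_zero_or_pos ((cosetGraph M₁ M₂).dist lam ν) with h0 | hpos
    · have e : lam = ν := hconn.dist_eq_zero_iff.mp h0
      rw [← e]
      show sylowCenterClosure p (MulAction.stabilizer X lam) ≤ _
      apply Z_le_of
      intro T hT
      obtain ⟨g, hg, hgT⟩ := hT1l.conj hT
      rw [← hgT, ← OZ_cj, Subgroup.map_le_iff_le_comap]
      intro u hu
      show g * u * g⁻¹ ∈ W ⊔ ⁅V, vertexQ p lam⁆
      exact hK g hg u (Subgroup.mem_sup_left (hZμW (OZ_le_Z _ _ hT1μ hu)))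
    · obtain ⟨m, hm⟩ : ∃ m, (cosetGraph M₁ M₂).dist lam ν = m + 1 :=
        ⟨(cosetGraph M₁ M₂).dist lam ν - 1, by omega⟩
      obtain ⟨μ', hμ', hμ'd⟩ := exists_adj_dist _ hconn lam ν m hm
      obtain ⟨g, hg, hgμ⟩ := cg_nbr_transitive M₁ M₂ lam μ μ' hμ hμ'
      have hd : (cosetGraph M₁ M₂).dist μ (g⁻¹ • ν) ≤ n - 1 := by
        have h3 := dist_smul M₁ M₂ hconn g μ (g⁻¹ • ν)
        rw [smul_inv_smul, hgμ] at h3
        omega
      have hZ : vertexZ p (g⁻¹ • ν) ≤ W := by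
        rw [hW]
        exact Z_le_VIter p M₁ M₂ (n - 1) μ _ hd
      have e : vertexZ p ν = (vertexZ p (g⁻¹ • ν)).map (MulAut.conj g).toMonoidHom := by
        rw [← vertexZ_smul M₁ M₂ h.1 g (g⁻¹ • ν), smul_inv_smul]
      rw [e, Subgroup.map_le_iff_le_comap]
      intro u hu
      show g * u * g⁻¹ ∈ W ⊔ ⁅V, vertexQ p lam⁆
      exact hK g hg u (Subgroup.mem_sup_left (hZ hu))
  have hVK : V ≤ W ⊔ ⁅V, vertexQ p lam⁆ := by
    intro v hv
    rw [hV] at hv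
    exact hVK' hv
  have hVW : V ≤ W := by
    haveI : Finite ↥(vertexQ p lam) :=
      Finite.of_injective (Subgroup.inclusion hQl) (Subgroup.inclusion_injective _)
    exact le_of_le_sup_commutator (vertexQ p lam) V W (pCoreOf_isPGroup p _) hVQ
      (fun q hq w hw => hWconj q (hQμ hq) w hw) hVK
  have hV0 : V = ⊥ := edge_trivial M₁ M₂ h.1.1 lam μ hμ V (hVQ.trans (le_inf hQl hQμ)) hVconj
    (fun g hg v hv => hWV (hWconj g hg v (hVW hv)))
  have hZ : vertexZ p lam ≤ V := by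
    rw [hV]
    exact Z_le_VIter p M₁ M₂ n lam lam (by rw [SimpleGraph.dist_self]; exact Nat.zero_le _)
  rw [hV0] at hZ
  exact vertexZ_ne_bot M₁ M₂ h.1 lam (le_bot_iff.mp hZ)

end Cfsg.Agent.Helper9.Amal
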