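import Mathlib

/-!
# Piece C for S3767: an irreducible isometry of a nondegenerate alternating space over `ZMod p`
satisfies `x ^ (p ^ j + 1) = 1` for some `j`.
-/

set_option autoImplicit false

namespace Cfsg.Agent.Helper9.ESC

open Polynomial

variable {p : ℕ} [Fact p.Prime] {V : Type*} [AddCommGroup V] [Module (ZMod p) V] [Finite V]

theorem irr_isom (B : V →ₗ[ZMod p] V →ₗ[ZMod p] ZMod p) (halt : ∀ v, B v v = 0)
    (x : V ≃ₗ[ZMod p] V) (hx : ∀ u v, B (x u) (x v) = B u v)
    (W : Submodule (ZMod p) V) (hWinv : ∀ w ∈ W, x w ∈ W) (hWne : W ≠ ⊥)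
    (hWmin : ∀ U : Submodule (ZMod p) V, U ≤ W → (∀ u ∈ U, x u ∈ U) → U = ⊥ ∨ U = W)
    (hWnd : ∀ u ∈ W, (∀ v ∈ W, B u v = 0) → u = 0) :
    ∃ j : ℕ, ∀ w ∈ W, (x ^ (p ^ j + 1)) w = w := by
  classical
  have hanti : ∀ u v, B u v = - B v u := by
    intro u v
    have h := halt (u + v)
    simp only [map_add, LinearMap.add_apply, halt, zero_add, add_zero] at h
    linear_combination h
  have hWinv' : ∀ w ∈ W, x.symm w ∈ W := by
    intro w hw
    have hinj : Function.Injective (fun u : W => (⟨x u, hWinv u u.2⟩ : W)) := by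
      intro a b hab
      have h1 := congrArg Subtype.val hab
      exact Subtype.ext (x.injective h1)
    obtain ⟨u, hu⟩ := (Finite.injective_iff_surjective.mp hinj) ⟨w, hw⟩
    have h2 : x (u : V) = w := congrArg Subtype.val hu
    rw [← h2, LinearEquiv.symm_apply_apply]
    exact u.2
  obtain ⟨y, hy_apply⟩ : ∃ y : Module.End (ZMod p) W, ∀ u : W, ((y u : W) : V) = x (u : V) :=
    ⟨(x : V →ₗ[ZMod p] V).restrict hWinv, fun u => rfl⟩
  obtain ⟨y', hy'_apply⟩ : ∃ y' : Module.End (ZMod p) W,
      ∀ u : W, ((y' u : W) : V) = x.symm (u : V) :=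
    ⟨(x.symm : V →ₗ[ZMod p] V).restrict hWinv', fun u => rfl⟩
  have hyy' : y * y' = 1 := by
    apply LinearMap.ext
    intro u
    apply Subtype.ext
    rw [Module.End.mul_apply, hy_apply, hy'_apply, LinearEquiv.apply_symm_apply, Module.End.one_apply]
  have hadj1 : ∀ u v : W, B ((y u : W) : V) (v : V) = B (u : V) ((y' v : W) : V) := by
    intro u v
    rw [hy_apply, hy'_apply]
    have h1 := hx (u : V) (x.symm (v : V))
    rw [LinearEquiv.apply_symm_apply] at h1
    exact h1
  have hpow : ∀ (n : ℕ) (u v : W),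
      B (((y ^ n) u : W) : V) (v : V) = B (u : V) (((y' ^ n) v : W) : V) := by
    intro n
    induction n with
    | zero => intro u v; rw [pow_zero, pow_zero, Module.End.one_apply, Module.End.one_apply]
    | succ n ih =>
      intro u v
      rw [pow_succ', pow_succ, Module.End.mul_apply, Module.End.mul_apply, hadj1, ih]
  have hadj : ∀ (g : Polynomial (ZMod p)) (u v : W),
      B ((aeval y g u : W) : V) (v : V) = B (u : V) ((aeval y' g v : W) : V) := by
    intro g u v
    rw [Polynomial.aeval_eq_sum_range, Polynomial.aeval_eq_sum_range]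
    simp only [LinearMap.sum_apply, LinearMap.smul_apply, Submodule.coe_sum, Submodule.coe_smul,
      map_sum, map_smul, smul_eq_mul]
    apply Finset.sum_congr rfl
    intro i _
    rw [hpow]
  haveI : Nontrivial W := (Submodule.nontrivial_iff_ne_bot).mpr hWne
  obtain ⟨f, hfdef⟩ : ∃ f : Polynomial (ZMod p), f = minpoly (ZMod p) y := ⟨_, rfl⟩
  have hint : IsIntegral (ZMod p) y := Algebra.IsIntegral.isIntegral y
  have hf0 : aeval y f = 0 := by rw [hfdef]; exact minpoly.aeval _ _
  have hfmonic : f.Monic := by rw [hfdef]; exact minpoly.monic hint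
  have hfne : f ≠ 0 := hfmonic.ne_zero
  have hker : ∀ g : Polynomial (ZMod p), aeval y g = 0 ∨ Function.Injective (aeval y g) := by
    intro g
    have hcomm : aeval y g * y = y * aeval y g := by
      calc aeval y g * y = aeval y g * aeval y (X : Polynomial (ZMod p)) := by rw [aeval_X]
        _ = aeval y (g * X) := (map_mul _ _ _).symm
        _ = aeval y (X * g) := by rw [mul_comm]
        _ = y * aeval y g := by rw [map_mul, aeval_X]
    have hUW : (LinearMap.ker (aeval y g)).map W.subtype ≤ W := by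
      rintro _ ⟨u, -, rfl⟩
      exact u.2
    have hUinv : ∀ u ∈ (LinearMap.ker (aeval y g)).map W.subtype,
        x u ∈ (LinearMap.ker (aeval y g)).map W.subtype := by
      rintro _ ⟨u, hu, rfl⟩
      refine ⟨y u, ?_, hy_apply u⟩
      rw [SetLike.mem_coe, LinearMap.mem_ker] at hu ⊢
      have h1 : aeval y g (y u) = y (aeval y g u) := by
        have h2 := congrArg (fun t : Module.End (ZMod p) W => t u) hcomm
        exact h2
      rw [h1, hu, map_zero]
    rcases hWmin _ hUW hUinv with h | h
    · right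
      rw [injective_iff_map_eq_zero]
      intro u hu
      have h1 : (u : V) ∈ (LinearMap.ker (aeval y g)).map W.subtype :=
        ⟨u, LinearMap.mem_ker.mpr hu, rfl⟩
      rw [h] at h1
      exact Subtype.ext ((Submodule.mem_bot _).mp h1)
    · left
      apply LinearMap.ext
      intro u
      have h1 : (u : V) ∈ (LinearMap.ker (aeval y g)).map W.subtype := by
        rw [h]; exact u.2
      obtain ⟨u', hu', hu'u⟩ := h1
      have h2 : u' = u := Subtype.ext hu'u
      rw [← h2]
      exact LinearMap.mem_ker.mp hu'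
  have hirr : Irreducible f := by
    rw [irreducible_iff]
    refine ⟨by rw [hfdef]; exact minpoly.not_isUnit (ZMod p) y, ?_⟩
    intro a b hab
    have h0 : aeval y a * aeval y b = 0 := by rw [← map_mul, ← hab]; exact hf0
    have hz : aeval y a = 0 ∨ aeval y b = 0 := by
      rcases hker a with h | h
      · exact Or.inl h
      · right
        apply LinearMap.ext
        intro u
        have h1 : aeval y a (aeval y b u) = 0 := by
          have h2 := congrArg (fun t : Module.End (ZMod p) W => t u) h0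
          exact h2
        apply h
        rw [LinearMap.zero_apply, map_zero]
        exact h1
    rcases hz with h | h
    · right
      obtain ⟨c, hc⟩ : f ∣ a := by rw [hfdef]; exact minpoly.dvd (ZMod p) y h
      have h1 : f * (c * b) = f * 1 := by rw [← mul_assoc, ← hc, ← hab, mul_one]
      have h2 : c * b = 1 := mul_left_cancel₀ hfne h1
      exact IsUnit.of_mul_eq_one c (by rw [mul_comm]; exact h2)
    · left
      obtain ⟨c, hc⟩ : f ∣ b := by rw [hfdef]; exact minpoly.dvd (ZMod p) y h
      have h1 : f * (a * c) = f * 1 := by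
        rw [mul_one, mul_left_comm, ← hc, ← hab]
      have h2 : a * c = 1 := mul_left_cancel₀ hfne h1
      exact IsUnit.of_mul_eq_one c h2
  haveI : Fact (Irreducible f) := ⟨hirr⟩
  haveI : Module.Finite (ZMod p) (AdjoinRoot f) := hfmonic.finite_adjoinRoot
  haveI : Finite (AdjoinRoot f) := Module.finite_of_finite (ZMod p)
  obtain ⟨φ, hφr⟩ : ∃ φ : AdjoinRoot f →ₐ[ZMod p] Module.End (ZMod p) W,
      φ (AdjoinRoot.root f) = y :=
    ⟨Ideal.Quotient.liftₐ (Ideal.span {f}) (aeval y) (fun a ha => by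
        obtain ⟨c, rfl⟩ := Ideal.mem_span_singleton.mp ha
        rw [map_mul, hf0, zero_mul]), by
      show Ideal.Quotient.liftₐ (Ideal.span {f}) (aeval y) _ (Ideal.Quotient.mk _ X) = y
      rw [Ideal.Quotient.liftₐ_apply]
      exact aeval_X y⟩
  have hφinj : Function.Injective φ := (φ : AdjoinRoot f →+* Module.End (ZMod p) W).injective
  obtain ⟨r, hrdef⟩ : ∃ r : AdjoinRoot f, r = AdjoinRoot.root f := ⟨_, rfl⟩
  rw [← hrdef] at hφr
  have hr0 : r ≠ 0 := by
    intro h0
    have h1 : y = 0 := by rw [← hφr, h0, map_zero]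
    have h2 : (1 : Module.End (ZMod p) W) = 0 := by rw [← hyy', h1, zero_mul]
    exact one_ne_zero h2
  have hφri : φ r⁻¹ = y' := by
    have h1 : φ r⁻¹ * y = 1 := by rw [← hφr, ← map_mul, inv_mul_cancel₀ hr0, map_one]
    calc φ r⁻¹ = φ r⁻¹ * (y * y') := by rw [hyy', mul_one]
      _ = (φ r⁻¹ * y) * y' := by rw [mul_assoc]
      _ = y' := by rw [h1, one_mul]
  have hfy' : aeval y' f = 0 := by
    apply LinearMap.ext
    intro v
    apply Subtype.ext
    have hmem : ((aeval y' f v : W) : V) ∈ W := (aeval y' f v).2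
    have h3 : ((aeval y' f v : W) : V) = 0 := by
      refine hWnd _ hmem ?_
      intro u hu
      rw [hanti]
      have h1 := hadj f ⟨u, hu⟩ v
      rw [hf0] at h1
      simp only [LinearMap.zero_apply, Submodule.coe_zero, map_zero] at h1
      rw [← h1, neg_zero]
    rw [h3]
    rfl
  have hfr : aeval r⁻¹ f = 0 := by
    apply hφinj
    rw [← Polynomial.aeval_algHom_apply, hφri, hfy', map_zero]
  obtain ⟨σ, hσr⟩ : ∃ σ : AdjoinRoot f →ₐ[ZMod p] AdjoinRoot f, σ (AdjoinRoot.root f) = r⁻¹ :=
    ⟨AdjoinRoot.liftAlgHom f (Algebra.ofId _ _) r⁻¹ hfr, AdjoinRoot.liftAlgHom_root f _ _ hfr⟩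
  rw [← hrdef] at hσr
  have hσbij : Function.Bijective σ := by
    have hinj : Function.Injective σ := (σ : AdjoinRoot f →+* AdjoinRoot f).injective
    exact ⟨hinj, Finite.injective_iff_surjective.mp hinj⟩
  obtain ⟨⟨j, hjlt⟩, hj⟩ :=
    (FiniteField.bijective_frobeniusAlgEquivOfAlgebraic_pow (ZMod p) (AdjoinRoot f)).2
      (AlgEquiv.ofBijective σ hσbij)
  have hrel : r ^ (p ^ j) = r⁻¹ := by
    have h1 : (AlgEquiv.ofBijective σ hσbij) r = r⁻¹ := hσr
    rw [← hj] at h1
    simp only [AlgEquiv.coe_pow, FiniteField.coe_frobeniusAlgEquivOfAlgebraic_iterate, ZMod.card] at h1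
    exact h1
  have hpow1 : r ^ (p ^ j + 1) = 1 := by rw [pow_succ, hrel, inv_mul_cancel₀ hr0]
  have hy1 : y ^ (p ^ j + 1) = 1 := by rw [← hφr, ← map_pow, hpow1, map_one]
  refine ⟨j, fun w hw => ?_⟩
  have hiter : ∀ (m : ℕ) (u : W), (((y ^ m) u : W) : V) = (x ^ m) (u : V) := by
    intro m
    induction m with
    | zero => intro u; rw [pow_zero, pow_zero, Module.End.one_apply]; rfl
    | succ m ih =>
      intro u
      rw [pow_succ', pow_succ', Module.End.mul_apply, hy_apply, ih]
      rfl
  have h9 := hiter (p ^ j + 1) ⟨w, hw⟩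
  rw [hy1, Module.End.one_apply] at h9
  exact h9.symm

end Cfsg.Agent.Helper9.ESC
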