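import Mathlib
import Cfsg.Agent.Helper11.ESA
import Cfsg.Agent.Helper9.ESC
import Cfsg.Agent.Helper20.ESD1
import Cfsg.Agent.Helper2.ESD2

/-!
# Core of S3767: a cyclic group of order `h` prime to `p` acting freely and isometrically on a nondegenerate
alternating space of order `p ^ (2 n)` over `ZMod p` has `h ∣ p ^ n + 1` or `h ∣ p ^ n - 1`.
-/

set_option autoImplicit false

namespace Cfsg.Agent.Helper9.ESCore

variable {p : ℕ} [Fact p.Prime] {V : Type*} [AddCommGroup V] [Module (ZMod p) V] [Finite V]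

theorem core (B : V →ₗ[ZMod p] V →ₗ[ZMod p] ZMod p) (halt : ∀ v, B v v = 0)
    (hnd : ∀ u, (∀ v, B u v = 0) → u = 0)
    (x : V ≃ₗ[ZMod p] V) (hx : ∀ u v, B (x u) (x v) = B u v)
    (h : ℕ) (h0 : 0 < h) (hh : x ^ h = 1) (hcop : h.Coprime p)
    (hfree : ∀ i, 0 < i → i < h → ∀ v, (x ^ i) v = v → v = 0)
    (hfd : ∀ L : Submodule (ZMod p) V, (∀ v ∈ L, x v ∈ L) →
      (∀ i, 0 < i → i < h → ∀ v ∈ L, (x ^ i) v = v → v = 0) → h ∣ Nat.card L - 1)
    (n : ℕ) (hn : Nat.card V = p ^ (2 * n)) :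
    h ∣ p ^ n + 1 ∨ h ∣ p ^ n - 1 := by
  have hp : p.Prime := Fact.out
  rcases Cfsg.Agent.Helper2.ESD2.lagr_or_irr B halt hnd x hx
      (fun L M hLM hL hM => Cfsg.Agent.Helper20.ESD1.maschke x h hh hcop L M hLM hL hM) with
    ⟨L, hL, hcard⟩ | ⟨W, hWinv, hWne, hWmin, hWnd⟩
  · right
    have h1 := hfd L hL (fun i hi hih v _ hv => hfree i hi hih v hv)
    have h2 : Nat.card L = p ^ n := by
      rw [hn] at hcard
      have h3 : Nat.card L ^ 2 = (p ^ n) ^ 2 := by
        rw [sq, hcard, ← pow_mul, mul_comm]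
      exact Nat.pow_left_injective (by norm_num : (2:ℕ) ≠ 0) h3
    rw [h2] at h1
    exact h1
  · obtain ⟨j, hj⟩ := Cfsg.Agent.Helper9.ESC.irr_isom B halt x hx W hWinv hWne hWmin hWnd
    obtain ⟨w, hwW, hw0⟩ := (Submodule.ne_bot_iff W).mp hWne
    have hdiv : h ∣ p ^ j + 1 := by
      by_contra hnot
      have hlt : (p ^ j + 1) % h < h := Nat.mod_lt _ h0
      have hpos : 0 < (p ^ j + 1) % h := by
        rcases Nat.eq_zero_or_pos ((p ^ j + 1) % h) with h9 | h9
        · exact absurd (Nat.dvd_of_mod_eq_zero h9) hnot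
        · exact h9
      have hfix : (x ^ ((p ^ j + 1) % h)) w = w := by
        have h5 : x ^ (p ^ j + 1) = x ^ ((p ^ j + 1) % h) := by
          conv_lhs => rw [← Nat.mod_add_div (p ^ j + 1) h]
          rw [pow_add, pow_mul, hh, one_pow, mul_one]
        rw [← h5]
        exact hj w hwW
      exact hw0 (hfree _ hpos hlt w hfix)
    have h2 : h ∣ p ^ (2 * n) - 1 := by
      have h1 := hfd ⊤ (fun v _ => Submodule.mem_top)
        (fun i hi hih v _ hv => hfree i hi hih v hv)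
      have h3 : Nat.card (⊤ : Submodule (ZMod p) V) = Nat.card V :=
        Nat.card_congr (Submodule.topEquiv (R := ZMod p) (M := V)).toEquiv
      rw [h3, hn] at h1
      exact h1
    exact Cfsg.Agent.Helper11.ESA.nt p h j n hp hdiv h2

end Cfsg.Agent.Helper9.ESCore
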