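import Mathlib
import Cfsg.Agent.Helper9.CoprimeGen
import Cfsg.Agent.Helper9.PPrimeCore

/-!
# helper9: fixed-point-free actions on abelian groups

A group `A` acting by automorphisms on a finite commutative group `V` such that every
nonidentity element has only the trivial fixed point.
-/

set_option autoImplicit false

namespace Cfsg.Agent.Helper9

open scoped BigOperators

section Fpf

variable {A V : Type*} [Group A]

theorem fpf_coprime [Finite A] [Group V] [Finite V] (φ : A →* MulAut V)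
    (hfpf : ∀ a : A, a ≠ 1 → ∀ v : V, φ a v = v → v = 1) :
    (Nat.card A).Coprime (Nat.card V) := by
  classical
  apply Nat.coprime_of_dvd
  intro r hr hrA hrV
  haveI := Fact.mk hr
  obtain ⟨a, ha⟩ := exists_prime_orderOf_dvd_card' r hrA
  have a1 : a ≠ 1 := by
    rintro rfl
    rw [orderOf_one] at ha
    exact hr.one_lt.ne ha
  haveI := Fintype.ofFinite V
  have hf : (MulAut.toPerm V (φ a)) ^ r ^ 1 = 1 := by
    have h1 : (φ a) ^ r = 1 := by rw [← map_pow, ← ha, pow_orderOf_eq_one, map_one]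
    rw [pow_one, ← map_pow, h1, map_one]
  have hfix1 : (MulAut.toPerm V (φ a)) 1 = 1 := map_one (φ a)
  obtain ⟨b, hb, hb1⟩ := Equiv.Perm.exists_fixed_point_of_prime'
    (by rwa [← Nat.card_eq_fintype_card]) hf hfix1
  exact hb1 (hfpf a a1 b hb)

theorem fpf_norm_eq_one [CommGroup V] (φ : A →* MulAut V)
    (hfpf : ∀ a : A, a ≠ 1 → ∀ v : V, φ a v = v → v = 1) (B : Subgroup A) [Fintype B]
    (hB : B ≠ ⊥) (v : V) : ∏ b : B, φ (b : A) v = 1 := by
  obtain ⟨b₀, hb₀⟩ := (Subgroup.ne_bot_iff_exists_ne_one).1 hB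
  apply hfpf (b₀ : A) (fun h => hb₀ (Subtype.ext h))
  rw [map_prod]
  exact Fintype.prod_equiv (Equiv.mulLeft b₀) _ _ (fun b => by
    simp only [Equiv.coe_mulLeft, Subgroup.coe_mul, map_mul, MulAut.mul_apply])

theorem fpf_pow_card_eq_one [CommGroup V] (φ : A →* MulAut V)
    (hfpf : ∀ a : A, a ≠ 1 → ∀ v : V, φ a v = v → v = 1) (Q : Subgroup A) [Q.Normal] [Fintype Q]
    (hQ : Q ≠ ⊥) (x : A) (p : ℕ) (hp : p.Prime) (hxp : ∀ y : Q, (x * (y : A)) ^ p = 1)
    (hx1 : ∀ y : Q, x * (y : A) ≠ 1) (v : V) : v ^ Fintype.card Q = 1 := by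
  classical
  have hNQ : ∏ y : Q, φ (y : A) v = 1 := fpf_norm_eq_one φ hfpf Q hQ v
  have hNg : ∀ g : A, g ≠ 1 → g ^ p = 1 → ∏ i ∈ Finset.range p, φ (g ^ i) v = 1 := by
    intro g hg1 hgp
    apply hfpf g hg1
    rw [map_prod]
    have h3 : (∏ k ∈ Finset.range p, φ (g ^ (k + 1)) v) = ∏ k ∈ Finset.range p, φ (g ^ k) v := by
      have h1 := Finset.prod_range_succ (fun i => φ (g ^ i) v) p
      rw [Finset.prod_range_succ' (fun i => φ (g ^ i) v) p] at h1
      have h4 : φ (g ^ p) v = φ (g ^ 0) v := by rw [hgp, pow_zero]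
      rw [h4] at h1
      exact mul_right_cancel h1
    rw [← h3]
    apply Finset.prod_congr rfl
    intro k _
    rw [pow_succ', map_mul, MulAut.mul_apply]
  have hprod : ∏ y : Q, ∏ i ∈ Finset.range p, φ ((x * (y : A)) ^ i) v = 1 :=
    Finset.prod_eq_one (fun y _ => hNg (x * y) (hx1 y) (hxp y))
  rw [Finset.prod_comm] at hprod
  obtain ⟨n, rfl⟩ : ∃ n, p = n + 1 := ⟨p - 1, by have := hp.pos; omega⟩
  rw [Finset.prod_range_succ'] at hprod
  have h0 : ∏ y : Q, φ ((x * (y : A)) ^ 0) v = v ^ Fintype.card Q := by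
    simp [Finset.prod_const, Finset.card_univ]
  have hk : ∀ k ∈ Finset.range n, ∏ y : Q, φ ((x * (y : A)) ^ (k + 1)) v = 1 := by
    intro k hk
    rw [Finset.mem_range] at hk
    have hmem : ∀ y : Q, (x ^ (k + 1))⁻¹ * (x * (y : A)) ^ (k + 1) ∈ Q := by
      intro y
      apply QuotientGroup.eq.1
      have h1 : ((x * (y : A) : A) : A ⧸ Q) = (x : A ⧸ Q) := QuotientGroup.mk_mul_of_mem x y.2
      rw [QuotientGroup.mk_pow, QuotientGroup.mk_pow, h1]
    obtain ⟨σ, hσ⟩ : ∃ σ : Q → Q, ∀ y : Q,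
        (σ y : A) = (x ^ (k + 1))⁻¹ * (x * (y : A)) ^ (k + 1) :=
      ⟨fun y => ⟨_, hmem y⟩, fun y => rfl⟩
    have hinj : Function.Injective σ := by
      intro y y' hyy
      have h1 : (x * (y : A)) ^ (k + 1) = (x * (y' : A)) ^ (k + 1) := by
        have h := congrArg (fun z : Q => (z : A)) hyy
        simp only [hσ] at h
        exact mul_left_cancel h
      have hcop : Nat.Coprime (k + 1) (n + 1) :=
        Nat.Coprime.symm ((Nat.Prime.coprime_iff_not_dvd hp).2
          (Nat.not_dvd_of_pos_of_lt (Nat.succ_pos k) (by omega)))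
      obtain ⟨m, -, hm⟩ := Nat.exists_mul_mod_eq_one_of_coprime hcop hp.one_lt
      have h2 : ∀ g : A, g ^ (n + 1) = 1 → (g ^ (k + 1)) ^ m = g := by
        intro g hg
        rw [← pow_mul, pow_eq_pow_mod _ hg, hm, pow_one]
      have h3 : x * (y : A) = x * (y' : A) := by
        rw [← h2 _ (hxp y), ← h2 _ (hxp y'), h1]
      exact Subtype.ext (mul_left_cancel h3)
    have hbij : Function.Bijective σ := Finite.injective_iff_bijective.1 hinj
    have h5 : ∏ y : Q, φ ((x * (y : A)) ^ (k + 1)) v = ∏ y : Q, φ (x ^ (k + 1) * (y : A)) v := by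
      apply Fintype.prod_equiv (Equiv.ofBijective σ hbij)
      intro y
      rw [Equiv.ofBijective_apply, hσ, mul_inv_cancel_left]
    rw [h5]
    have h6 : ∀ y : Q, φ (x ^ (k + 1) * (y : A)) v = φ (x ^ (k + 1)) (φ (y : A) v) := by
      intro y
      rw [map_mul, MulAut.mul_apply]
    simp_rw [h6]
    have h7 : ∏ y : Q, φ (x ^ (k + 1)) (φ (y : A) v) = φ (x ^ (k + 1)) (∏ y : Q, φ (y : A) v) :=
      (map_prod (φ (x ^ (k + 1))) (fun y : Q => φ (y : A) v) Finset.univ).symm
    rw [h7, hNQ, map_one]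
  rw [Finset.prod_eq_one hk, one_mul, h0] at hprod
  exact hprod

theorem fpf_isCyclic_of_card_pq [Finite A] [CommGroup V] [Finite V] [Nontrivial V]
    (φ : A →* MulAut V) (hfpf : ∀ a : A, a ≠ 1 → ∀ v : V, φ a v = v → v = 1)
    (p q : ℕ) (hp : p.Prime) (hq : q.Prime) (hpq : p < q) (hcard : Nat.card A = p * q) :
    IsCyclic A := by
  classical
  by_contra hnc
  haveI := Fact.mk hp
  haveI := Fact.mk hq
  obtain ⟨y₀, hy₀⟩ := exists_prime_orderOf_dvd_card' (G := A) q
    (by rw [hcard]; exact dvd_mul_left q p)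
  obtain ⟨x, hx⟩ := exists_prime_orderOf_dvd_card' (G := A) p
    (by rw [hcard]; exact dvd_mul_right p q)
  obtain ⟨Q, hQdef⟩ : ∃ Q : Subgroup A, Q = Subgroup.zpowers y₀ := ⟨_, rfl⟩
  have hQcard : Nat.card Q = q := by rw [hQdef, Nat.card_zpowers, hy₀]
  have hQidx : Q.index = p := by
    have h := Subgroup.card_mul_index Q
    rw [hQcard, hcard] at h
    exact Nat.eq_of_mul_eq_mul_left hq.pos (h.trans (mul_comm p q))
  have hminFac : (Nat.card A).minFac = p := by
    rw [hcard]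
    have h1 : (p * q).minFac ∣ p * q := Nat.minFac_dvd _
    have hpr : (p * q).minFac.Prime := Nat.minFac_prime (by
      intro h
      have h2 := hp.two_le
      have h3 := hq.two_le
      nlinarith)
    have hle : (p * q).minFac ≤ p := Nat.minFac_le_of_dvd hp.two_le (dvd_mul_right p q)
    rcases (Nat.Prime.dvd_mul hpr).1 h1 with h | h
    · exact (Nat.prime_dvd_prime_iff_eq hpr hp).1 h
    · have h2 := (Nat.prime_dvd_prime_iff_eq hpr hq).1 h
      omega
  haveI hQn : Q.Normal := Subgroup.normal_of_index_eq_minFac_card (by rw [hQidx, hminFac])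
  have hQbot : Q ≠ ⊥ := by
    intro h
    rw [h, Subgroup.card_bot] at hQcard
    exact hq.one_lt.ne hQcard
  have hxQ : x ∉ Q := by
    intro h
    have h1 : orderOf (⟨x, h⟩ : Q) ∣ Nat.card Q := orderOf_dvd_natCard _
    rw [Subgroup.orderOf_mk, hx, hQcard] at h1
    have h2 := (Nat.prime_dvd_prime_iff_eq hp hq).1 h1
    omega
  have hcopq : Nat.Coprime q p := (Nat.coprime_primes hq hp).2 (by omega)
  have hkey : ∀ y : Q, (x * (y : A)) ^ p = 1 ∧ x * (y : A) ≠ 1 := by
    intro y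
    have hgQ : x * (y : A) ∉ Q := by
      intro h
      apply hxQ
      have h2 := Q.mul_mem h (Q.inv_mem y.2)
      rwa [mul_inv_cancel_right] at h2
    have hg1 : x * (y : A) ≠ 1 := fun h => hgQ (h ▸ Q.one_mem)
    refine ⟨?_, hg1⟩
    have hdvd : orderOf (x * (y : A)) ∣ p * q := hcard ▸ orderOf_dvd_natCard _
    obtain ⟨k₁, k₂, hk₁, hk₂, hk⟩ := (Nat.dvd_mul).1 hdvd
    rcases (Nat.dvd_prime hp).1 hk₁ with h1 | h1 <;> rcases (Nat.dvd_prime hq).1 hk₂ with h2 | h2
    · rw [h1, h2, one_mul] at hk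
      exact absurd (orderOf_eq_one_iff.1 hk.symm) hg1
    · rw [h1, h2, one_mul] at hk
      exfalso
      apply hgQ
      apply (QuotientGroup.eq_one_iff (N := Q) (x * (y : A))).1
      rw [← orderOf_eq_one_iff]
      apply Nat.eq_one_of_dvd_coprimes hcopq
      · apply orderOf_dvd_of_pow_eq_one
        rw [← QuotientGroup.mk_pow, hk, pow_orderOf_eq_one]
        rfl
      · have h3 := orderOf_dvd_natCard ((x * (y : A) : A) : A ⧸ Q)
        rwa [← Subgroup.index_eq_card, hQidx] at h3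
    · rw [h1, h2, mul_one] at hk
      rw [hk]
      exact pow_orderOf_eq_one _
    · rw [h1, h2] at hk
      exact absurd (isCyclic_of_orderOf_eq_card _ (by rw [← hk, hcard])) hnc
  haveI := Fintype.ofFinite Q
  have hpow : ∀ v : V, v ^ Fintype.card Q = 1 :=
    fun v => fpf_pow_card_eq_one φ hfpf Q hQbot x p hp (fun y => (hkey y).1)
      (fun y => (hkey y).2) v
  have hcop := fpf_coprime φ hfpf
  obtain ⟨v, hv⟩ := exists_ne (1 : V)
  apply hv
  have hqV : (Nat.card V).Coprime q := by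
    rw [hcard] at hcop
    exact (Nat.Coprime.coprime_mul_left hcop).symm
  apply eq_one_of_pow_eq_one_of_coprime hqV v
  rw [← hQcard, Nat.card_eq_fintype_card]
  exact hpow v

end Fpf

end Cfsg.Agent.Helper9
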