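import Cfsg.Agent.Helper9.KW1

/-!
# Kegel–Wielandt, coprime case (helper9), part 2: local analysis, uniqueness, centralizers.
-/

set_option autoImplicit false

namespace Cfsg.Agent.Helper9.KW

universe u

open scoped Pointwise

variable {G : Type u} [Group G]

theorem pow_card_of_mem {A : Subgroup G} {a : G} (ha : a ∈ A) : a ^ Nat.card A = 1 :=
  orderOf_dvd_iff_pow_eq_one.mp (Subgroup.orderOf_dvd_natCard A ha)

theorem orderOf_conj' (g x : G) : orderOf (g * x * g⁻¹) = orderOf x :=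
  MulEquiv.orderOf_eq (MulAut.conj g) x

theorem conj_mem_centralizer' {S : Set G} {x c : G} (hS : ∀ f ∈ S, x⁻¹ * f * x ∈ S)
    (hc : c ∈ Subgroup.centralizer S) : x * c * x⁻¹ ∈ Subgroup.centralizer S := by
  rw [Subgroup.mem_centralizer_iff] at hc ⊢
  intro f hf
  have h1 := hc _ (hS f hf)
  have h2 : f * (x * c * x⁻¹) = x * (x⁻¹ * f * x * c) * x⁻¹ := by group
  rw [h2, h1]; group

theorem mem_of_pow_mem {C : Subgroup G} {y : G} {k : ℕ} (hk : k.Coprime (orderOf y))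
    (h : y ^ k ∈ C) : y ∈ C := by
  have h1 : (1 : ℤ) = k * Nat.gcdA k (orderOf y) + orderOf y * Nat.gcdB k (orderOf y) := by
    have := Nat.gcd_eq_gcd_ab k (orderOf y)
    rw [hk.gcd_eq_one] at this
    exact_mod_cast this
  have h2 : y = (y ^ k) ^ (Nat.gcdA k (orderOf y)) := by
    conv_lhs => rw [← zpow_one y, h1, zpow_add, zpow_mul, zpow_mul, zpow_natCast, zpow_natCast,
      pow_orderOf_eq_one, one_zpow, mul_one]
  rw [h2]; exact C.zpow_mem h _

theorem prime_elt [Finite G] {A B : Subgroup G} (h : Fac A B) {y : G}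
    (hne : y ^ Nat.card A ≠ 1) :
    ∃ q k : ℕ, q.Prime ∧ ¬ q ∣ Nat.card A ∧ orderOf (y ^ k) = q := by
  have hwB : (y ^ Nat.card A) ^ Nat.card B = 1 := by
    rw [← pow_mul, h.card_mul]; exact pow_card_eq_one'
  have hord : orderOf (y ^ Nat.card A) ∣ Nat.card B := orderOf_dvd_of_pow_eq_one hwB
  have hord1 : orderOf (y ^ Nat.card A) ≠ 1 := fun e => hne (orderOf_eq_one_iff.mp e)
  obtain ⟨q, hq, hqd⟩ := Nat.exists_prime_and_dvd hord1
  refine ⟨q, Nat.card A * (orderOf (y ^ Nat.card A) / q), hq, ?_, ?_⟩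
  · intro hqA
    have := eq_one_of_dvd_of_coprime h.cop hqA (hqd.trans hord)
    exact hq.one_lt.ne' this
  · rw [pow_mul]
    exact orderOf_pow_orderOf_div (orderOf_pos _).ne' hqd

theorem decomp [Finite G] (p : ℕ) [Fact p.Prime] (f : G) :
    ∃ a b k m : ℕ, f = f ^ a * f ^ b ∧ (f ^ a) ^ (p ^ k) = 1 ∧ ¬ p ∣ m ∧ (f ^ b) ^ m = 1 := by
  have hp := (Fact.out : p.Prime)
  obtain ⟨k, m, hm, hn⟩ := Nat.exists_eq_pow_mul_and_not_dvd (orderOf_pos f).ne' p hp.ne_one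
  have hcop : (p ^ k).Coprime m :=
    Nat.Coprime.pow_left k ((Nat.Prime.coprime_iff_not_dvd hp).mpr hm)
  obtain ⟨a, ha1, ha2⟩ := Nat.chineseRemainder hcop 1 0
  obtain ⟨b, hb1, hb2⟩ := Nat.chineseRemainder hcop 0 1
  refine ⟨a, b, k, m, ?_, ?_, hm, ?_⟩
  · rw [← pow_add]
    conv_lhs => rw [← pow_one f]
    rw [pow_eq_pow_iff_modEq, hn, ← Nat.modEq_and_modEq_iff_modEq_mul hcop]
    constructor
    · have := ha1.add hb1
      simpa using this.symm
    · have := ha2.add hb2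
      simpa using this.symm
  · rw [← pow_mul]
    apply (orderOf_dvd_iff_pow_eq_one).mp
    rw [hn]
    obtain ⟨c, rfl⟩ := (Nat.modEq_zero_iff_dvd).mp ha2
    exact ⟨c, by ring⟩
  · rw [← pow_mul]
    apply (orderOf_dvd_iff_pow_eq_one).mp
    rw [hn]
    obtain ⟨c, rfl⟩ := (Nat.modEq_zero_iff_dvd).mp hb1
    exact ⟨c, by ring⟩

theorem SylOf.mem_of_pow [Finite G] {A P : Subgroup G} {p : ℕ} [Fact p.Prime] (hS : SylOf A p P)
    {x : G} (hx : x ∈ A) {k : ℕ} (hk : x ^ (p ^ k) = 1) : x ∈ P := by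
  have hT : IsPGroup p (Subgroup.zpowers x) := by
    obtain ⟨j, -, hj⟩ := (Nat.dvd_prime_pow Fact.out).mp (orderOf_dvd_of_pow_eq_one hk)
    exact IsPGroup.of_card (n := j) (by rw [Nat.card_zpowers, hj])
  exact hS.le_of_pg (Subgroup.zpowers_le.mpr hx) hT (Subgroup.mem_zpowers x)

theorem mem_pow_of_pg {p : ℕ} {P : Subgroup G} (hP : IsPGroup p P) {z : G} (hz : z ∈ P) :
    ∃ k : ℕ, z ^ (p ^ k) = 1 := by
  obtain ⟨k, hk⟩ := hP ⟨z, hz⟩
  exact ⟨k, by simpa using congrArg Subtype.val hk⟩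

theorem Fac.conj_both [Finite G] {A B : Subgroup G} (h : Fac A B) (g : G) :
    Fac (MulAut.conj g • A) (MulAut.conj g • B) := by
  refine ⟨?_, ?_, ?_, ?_⟩
  · haveI := h.nilA
    exact Group.nilpotent_of_mulEquiv (Subgroup.equivSMul (MulAut.conj g) A)
  · haveI := h.nilB
    exact Group.nilpotent_of_mulEquiv (Subgroup.equivSMul (MulAut.conj g) B)
  · rw [card_conj, card_conj]; exact h.cop
  · intro y
    obtain ⟨a, ha, b, hb, hy⟩ := h.fac (g⁻¹ * y * g)
    refine ⟨g * a * g⁻¹, ?_, g * b * g⁻¹, ?_, ?_⟩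
    · rw [mem_conj]; simpa [mul_assoc] using ha
    · rw [mem_conj]; simpa [mul_assoc] using hb
    · have e : y = g * (g⁻¹ * y * g) * g⁻¹ := by group
      rw [e, hy]; group

theorem conj_in_subgroup [Finite G] {r : ℕ} [Fact r.Prime] {R C R' : Subgroup G}
    (hR : IsPGroup r R) (hRC : R ≤ C) (hind : ¬ r ∣ R.relIndex C) (hR' : IsPGroup r R')
    (hR'C : R' ≤ C) : ∃ c ∈ C, ∀ x ∈ R', c * x * c⁻¹ ∈ R := by
  have h1 : IsPGroup r (R.subgroupOf C) := hR.comap_subtype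
  have h2 : IsPGroup r (R'.subgroupOf C) := hR'.comap_subtype
  obtain ⟨c, hc⟩ := sylow_conj_le (G := C) h1 hind h2
  refine ⟨((c⁻¹ : C) : G), (c⁻¹).2, ?_⟩
  intro x hx
  have h3 : (⟨x, hR'C hx⟩ : C) ∈ MulAut.conj c • R.subgroupOf C :=
    hc (by rw [Subgroup.mem_subgroupOf]; exact hx)
  rw [mem_conj, Subgroup.mem_subgroupOf] at h3
  simpa using h3

theorem mem_of_pi [Finite G] {A B : Subgroup G} (h : Fac A B) {C : Subgroup G}
    (hC : ∀ c ∈ C, c ^ Nat.card A = 1) {y : G} (hy : y ∈ C) {a b : G} (ha : a ∈ A)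
    (haN : a ∈ Subgroup.normalizer (C : Set G)) (hb : b ∈ B) (hyab : y = a * b) : y ∈ A := by
  have hb' : b = a⁻¹ * y := by rw [hyab]; group
  obtain ⟨c', hc', hpow⟩ := pow_mul_normalizes (Subgroup.inv_mem _ haN) hy (Nat.card A)
  have h2 : b ^ Nat.card A ∈ C := by
    rw [hb', hpow, pow_card_of_mem (A.inv_mem ha), one_mul]; exact hc'
  have h3 : (b ^ Nat.card A) ^ Nat.card A = 1 := hC _ h2
  have h5 : orderOf b ∣ Nat.card A * Nat.card A :=
    orderOf_dvd_of_pow_eq_one (by rw [pow_mul]; exact h3)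
  have h6 : orderOf b ∣ Nat.card B := Subgroup.orderOf_dvd_natCard B hb
  have h7 : orderOf b = 1 := eq_one_of_dvd_of_coprime (Nat.Coprime.mul_left h.cop h.cop) h5 h6
  rw [orderOf_eq_one_iff] at h7
  rw [hyab, h7, mul_one]; exact ha

theorem pgroup_dvd_card [Finite G] {p : ℕ} [Fact p.Prime] {T : Subgroup G} (hT : IsPGroup p T)
    (hT1 : T ≠ ⊥) : p ∣ Nat.card T := by
  obtain ⟨n, hn⟩ := IsPGroup.iff_card.mp hT
  have hn0 : n ≠ 0 := by
    rintro rfl
    rw [pow_zero] at hn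
    exact hT1 ((Subgroup.eq_bot_iff_card T).mpr hn)
  rw [hn]; exact dvd_pow_self p hn0

theorem mem_of_mem_sup_of_coprime [Finite G] {A C : Subgroup G}
    (hN : A ≤ Subgroup.normalizer (C : Set G)) {z : G} (hz : z ∈ A ⊔ C)
    (hcop : (Nat.card A).Coprime (orderOf z)) : z ∈ C := by
  have hz' : z⁻¹ ∈ C ⊔ A := by rw [sup_comm]; exact Subgroup.inv_mem _ hz
  obtain ⟨c, hc, a, ha, hzca⟩ := exists_mul_of_mem_sup C A hN hz'
  have hz2 : z = a⁻¹ * c⁻¹ := by rw [← mul_inv_rev, ← hzca, inv_inv]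
  obtain ⟨c', hc', hpow⟩ :=
    pow_mul_normalizes (Subgroup.inv_mem _ (hN ha)) (C.inv_mem hc) (Nat.card A)
  have h1 : z ^ Nat.card A ∈ C := by
    rw [hz2, hpow, pow_card_of_mem (A.inv_mem ha), one_mul]; exact hc'
  exact mem_of_pow_mem hcop h1

/-! ### The `p`-part and `p'`-part of a subgroup -/

/-- The `p`-elements of `F`. -/
def pPart (p : ℕ) (F : Subgroup G) : Set G := {f | f ∈ F ∧ ∃ k : ℕ, f ^ (p ^ k) = 1}

/-- The `p'`-elements of `F`. -/
def pPrimePart (p : ℕ) (F : Subgroup G) : Set G := {f | f ∈ F ∧ ∃ m : ℕ, ¬ p ∣ m ∧ f ^ m = 1}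

theorem pPart_conj {p : ℕ} {F : Subgroup G} {x f : G}
    (hx : x ∈ Subgroup.normalizer (F : Set G)) (hf : f ∈ pPart p F) :
    x⁻¹ * f * x ∈ pPart p F := by
  obtain ⟨hfF, k, hk⟩ := hf
  refine ⟨(Subgroup.mem_normalizer_iff''.mp hx f).mp hfF, k, ?_⟩
  have e : x⁻¹ * f * x = x⁻¹ * f * x⁻¹⁻¹ := by rw [inv_inv]
  rw [e, conj_pow, hk]; group

theorem pPrimePart_conj {p : ℕ} {F : Subgroup G} {x f : G}
    (hx : x ∈ Subgroup.normalizer (F : Set G)) (hf : f ∈ pPrimePart p F) :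
    x⁻¹ * f * x ∈ pPrimePart p F := by
  obtain ⟨hfF, m, hm, hfm⟩ := hf
  refine ⟨(Subgroup.mem_normalizer_iff''.mp hx f).mp hfF, m, hm, ?_⟩
  have e : x⁻¹ * f * x = x⁻¹ * f * x⁻¹⁻¹ := by rw [inv_inv]
  rw [e, conj_pow, hfm]; group

theorem cent_normalized [Finite G] {H : Subgroup G} {S : Set G}
    (hS : ∀ x ∈ H, ∀ f ∈ S, x⁻¹ * f * x ∈ S) :
    H ≤ Subgroup.normalizer ((H ⊓ Subgroup.centralizer S : Subgroup G) : Set G) := by
  intro x hx
  apply mem_normalizer_of_conj_le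
  rintro c ⟨hcH, hcC⟩
  exact ⟨H.mul_mem (H.mul_mem hx hcH) (H.inv_mem hx), conj_mem_centralizer' (hS x hx) hcC⟩

theorem R_le_cent_pPart [Finite G] {A P R F : Subgroup G} {p r : ℕ} [Fact p.Prime]
    [Fact r.Prime] (hP : SylOf A p P) (hR : SylOf A r R) (hpr : p ≠ r) (hFA : F ≤ A) :
    R ≤ Subgroup.centralizer (pPart p F) := by
  intro y hy
  rw [Subgroup.mem_centralizer_iff]
  rintro f ⟨hf, k, hk⟩
  exact hP.commute hR hpr (hP.mem_of_pow (hFA hf) hk) hy

theorem P_le_cent_pPrimePart [Finite G] {A B P F : Subgroup G} (h : Fac A B) {p : ℕ}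
    [Fact p.Prime] (hP : SylOf A p P) (hFA : F ≤ A) :
    P ≤ Subgroup.centralizer (pPrimePart p F) := by
  intro y hy
  rw [Subgroup.mem_centralizer_iff]
  rintro f ⟨hf, m, hm, hfm⟩
  have hc : (orderOf f).Coprime p :=
    Nat.Coprime.coprime_dvd_left (orderOf_dvd_of_pow_eq_one hfm)
      (((Nat.Prime.coprime_iff_not_dvd Fact.out).mpr hm).symm)
  have h2 := hP.mem_centralizer_of_coprime h (hFA hf) hc
  exact ((Subgroup.mem_centralizer_iff.mp h2) y hy).symm

theorem cent_of_parts [Finite G] (p : ℕ) [Fact p.Prime] {F : Subgroup G} {z : G}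
    (h1 : z ∈ Subgroup.centralizer (pPart p F)) (h2 : z ∈ Subgroup.centralizer (pPrimePart p F)) :
    z ∈ Subgroup.centralizer (F : Set G) := by
  rw [Subgroup.mem_centralizer_iff]
  intro f hf
  obtain ⟨a, b, k, m, hfab, hak, hm, hbm⟩ := decomp p f
  have e1 := (Subgroup.mem_centralizer_iff.mp h1) (f ^ a) ⟨F.pow_mem hf a, k, hak⟩
  have e2 := (Subgroup.mem_centralizer_iff.mp h2) (f ^ b) ⟨F.pow_mem hf b, m, hm, hbm⟩
  rw [hfab, mul_assoc, e2, ← mul_assoc, e1, mul_assoc]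

/-! ### Local analysis -/

theorem loc [Finite G] (hM : Min G) {A B : Subgroup G} (h : Fac A B) {H : Subgroup G}
    (hH : H ≠ ⊤) (hfacH : ∀ x ∈ H, ∃ a ∈ H ⊓ A, ∃ b ∈ H ⊓ B, x = a * b) {p : ℕ} [Fact p.Prime]
    {P : Subgroup G} (hP : SylOf A p P) (hP1 : P ≠ ⊥) (hPH : P ≤ H) :
    ∃ F : Subgroup G, F ≤ A ∧ F ≤ H ∧ H ≤ Subgroup.normalizer (F : Set G) ∧
      H ⊓ Subgroup.centralizer (F : Set G) ≤ F := by
  have hsolv : Group.IsSolvable H := by
    apply hM.ih H (H ⊓ A) (H ⊓ B) hH inf_le_left inf_le_left (nil_of_le h.nilA inf_le_right)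
      (nil_of_le h.nilB inf_le_right)
    · exact Nat.Coprime.coprime_dvd_left (Subgroup.card_dvd_of_le inf_le_right)
        (Nat.Coprime.coprime_dvd_right (Subgroup.card_dvd_of_le inf_le_right) h.cop)
    · exact hfacH
  haveI := hsolv
  have hF0n : (Cfsg.fittingSubgroup H).Normal := Cfsg.Agent.Helper1.fitting_normal H
  have hF0nil : Group.IsNilpotent (Cfsg.fittingSubgroup H) :=
    Cfsg.Agent.Helper1.fitting_isNilpotent
  have hFH : (Cfsg.fittingSubgroup H).map H.subtype ≤ H := Subgroup.map_subtype_le _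
  have hHN : H ≤ Subgroup.normalizer (((Cfsg.fittingSubgroup H).map H.subtype : Subgroup G) :
      Set G) := by
    intro x hx
    apply mem_normalizer_of_conj_le
    rintro _ ⟨f, hf, rfl⟩
    exact ⟨⟨x, hx⟩ * f * ⟨x, hx⟩⁻¹, hF0n.conj_mem f hf ⟨x, hx⟩, by simp⟩
  have hFpi : ∀ c ∈ (Cfsg.fittingSubgroup H).map H.subtype, c ^ Nat.card A = 1 := by
    intro c hc
    by_contra hne
    obtain ⟨q, k, hq, hqA, hord⟩ := prime_elt h hne
    haveI : Fact q.Prime := ⟨hq⟩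
    obtain ⟨Sq⟩ : Nonempty (Sylow q (Cfsg.fittingSubgroup H)) := inferInstance
    have hSqn : ((Sq : Subgroup (Cfsg.fittingSubgroup H)).map
        (Cfsg.fittingSubgroup H).subtype).Normal :=
      Cfsg.Agent.Helper1.sylow_of_normal_nilpotent_normal hF0n hF0nil q Sq
    -- `q` divides the order of the Fitting subgroup
    obtain ⟨f, hf, rfl⟩ := hc
    have hqF : q ∣ Nat.card (Cfsg.fittingSubgroup H) := by
      have h1 : orderOf ((⟨f, hf⟩ : Cfsg.fittingSubgroup H) ^ k) = q := by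
        rw [← hord]
        have := orderOf_injective (H.subtype.comp (Cfsg.fittingSubgroup H).subtype)
          (H.subtype_injective.comp (Cfsg.fittingSubgroup H).subtype_injective)
          ((⟨f, hf⟩ : Cfsg.fittingSubgroup H) ^ k)
        rw [← this]
        simp
      rw [← h1]
      exact orderOf_dvd_natCard _
    have hSq1 : (Sq : Subgroup (Cfsg.fittingSubgroup H)) ≠ ⊥ := Sq.ne_bot_of_dvd_card hqF
    have hT : IsPGroup q ↥((((Sq : Subgroup (Cfsg.fittingSubgroup H)).map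
        (Cfsg.fittingSubgroup H).subtype).map H.subtype : Subgroup G)) :=
      (Sq.2.map _).map _
    have hT1 : (((Sq : Subgroup (Cfsg.fittingSubgroup H)).map
        (Cfsg.fittingSubgroup H).subtype).map H.subtype : Subgroup G) ≠ ⊥ := by
      intro e
      rw [Subgroup.map_eq_bot_iff_of_injective _ H.subtype_injective,
        Subgroup.map_eq_bot_iff_of_injective _ (Cfsg.fittingSubgroup H).subtype_injective] at e
      exact hSq1 e
    have hN : P ≤ Subgroup.normalizer ((((Sq : Subgroup (Cfsg.fittingSubgroup H)).map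
        (Cfsg.fittingSubgroup H).subtype).map H.subtype : Subgroup G) : Set G) := by
      intro x hx
      apply mem_normalizer_of_conj_le
      rintro _ ⟨t, ht, rfl⟩
      exact ⟨⟨x, hPH hx⟩ * t * ⟨x, hPH hx⟩⁻¹, hSqn.conj_mem t ht ⟨x, hPH hx⟩, by simp⟩
    exact no_q hM h hP hP1 hqA hT hT1 hN
  have hFA : (Cfsg.fittingSubgroup H).map H.subtype ≤ A := by
    intro y hy
    obtain ⟨a, ha, b, hb, hyab⟩ := hfacH y (hFH hy)
    exact mem_of_pi h hFpi hy ha.2 (hHN ha.1) hb.2 hyab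
  refine ⟨(Cfsg.fittingSubgroup H).map H.subtype, hFA, hFH, hHN, ?_⟩
  rintro x ⟨hxH, hxC⟩
  have h1 : (⟨x, hxH⟩ : H) ∈ Subgroup.centralizer ((Cfsg.fittingSubgroup H : Subgroup H) :
      Set H) := by
    rw [Subgroup.mem_centralizer_iff]
    intro f hf
    apply Subtype.ext
    exact (Subgroup.mem_centralizer_iff.mp hxC) (f : G) ⟨f, hf, rfl⟩
  have h2 := Cfsg.Agent.S0044.result (G := H) h1
  exact ⟨⟨x, hxH⟩, h2, rfl⟩

/-! ### Frattini argument -/

theorem frat [Finite G] {r : ℕ} [Fact r.Prime] {R C H : Subgroup G} (hR : IsPGroup r R)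
    (hind : ¬ r ∣ R.index) (hRC : R ≤ C) (hHC : H ≤ Subgroup.normalizer (C : Set G)) :
    ∀ x ∈ H, ∃ c ∈ C, ∃ n ∈ Subgroup.normalizer (R : Set G), x = c * n := by
  intro x hx
  have hR' : IsPGroup r ↥(MulAut.conj x • R) :=
    hR.of_equiv (Subgroup.equivSMul (MulAut.conj x) R)
  have hR'C : MulAut.conj x • R ≤ C := by
    intro y hy
    rw [mem_conj] at hy
    have := (Subgroup.mem_normalizer_iff.mp (hHC hx) (x⁻¹ * y * x)).mp (hRC hy)
    simpa [mul_assoc] using this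
  have hind' : ¬ r ∣ R.relIndex C :=
    fun hd => hind (hd.trans (Subgroup.relIndex_dvd_index_of_le hRC))
  obtain ⟨c, hc, hcR⟩ := conj_in_subgroup hR hRC hind' hR' hR'C
  refine ⟨c⁻¹, C.inv_mem hc, c * x, ?_, by group⟩
  apply mem_normalizer_of_conj_le
  intro y hy
  have h1 : x * y * x⁻¹ ∈ MulAut.conj x • R := by rw [mem_conj]; simpa [mul_assoc] using hy
  have h2 := hcR _ h1
  have h3 : c * x * y * (c * x)⁻¹ = c * (x * y * x⁻¹) * c⁻¹ := by group
  rw [h3]; exact h2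

/-! ### Uniqueness -/

theorem card_ne_one_fac [Finite G] (hM : Min G) {A B : Subgroup G} (h : Fac A B) :
    Nat.card A ≠ 1 := by
  intro e
  haveI : Fact (Nat.Prime 2) := ⟨Nat.prime_two⟩
  exact not_pgroup_fac hM h 2 (IsPGroup.of_card (n := 0) (by rw [e, pow_zero]))

theorem uniq [Finite G] (hM : Min G) {A B : Subgroup G} (h : Fac A B) {H : Subgroup G}
    (hH : H ≠ ⊤) (hAH : A ≤ H) : H ≤ Subgroup.normalizer (A : Set G) := by
  obtain ⟨p, hp, hpA⟩ := Nat.exists_prime_and_dvd (card_ne_one_fac hM h)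
  haveI : Fact p.Prime := ⟨hp⟩
  obtain ⟨r, hr, hrp, hrA⟩ := exists_other_prime hM h p
  haveI : Fact r.Prime := ⟨hr⟩
  obtain ⟨P, hP, hP1⟩ := exists_sylOf h p hpA
  obtain ⟨R, hR, hR1⟩ := exists_sylOf h r hrA
  have hfacH : ∀ x ∈ H, ∃ a ∈ H ⊓ A, ∃ b ∈ H ⊓ B, x = a * b := by
    intro x hx
    obtain ⟨a, ha, b, hb, hxab⟩ := h.fac x
    refine ⟨a, ⟨hAH ha, ha⟩, b, ⟨?_, hb⟩, hxab⟩
    have e : b = a⁻¹ * x := by rw [hxab]; group
    rw [e]; exact H.mul_mem (H.inv_mem (hAH ha)) hx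
  obtain ⟨F, hFA, hFH, hHNF, hCF⟩ := loc hM h hH hfacH hP hP1 (hP.le.trans hAH)
  have hRC1 : R ≤ H ⊓ Subgroup.centralizer (pPart p F) :=
    le_inf (hR.le.trans hAH) (R_le_cent_pPart hP hR hrp.symm hFA)
  have hPC2 : P ≤ H ⊓ Subgroup.centralizer (pPrimePart p F) :=
    le_inf (hP.le.trans hAH) (P_le_cent_pPrimePart h hP hFA)
  have hHC1 : H ≤ Subgroup.normalizer
      ((H ⊓ Subgroup.centralizer (pPart p F) : Subgroup G) : Set G) :=
    cent_normalized (fun x hx f hf => pPart_conj (hHNF hx) hf)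
  have hHC2 : H ≤ Subgroup.normalizer
      ((H ⊓ Subgroup.centralizer (pPrimePart p F) : Subgroup G) : Set G) :=
    cent_normalized (fun x hx f hf => pPrimePart_conj (hHNF hx) hf)
  have hf1 := frat hR.pg hR.ind hRC1 hHC1
  have hf2 := frat hP.pg hP.ind hPC2 hHC2
  have hNR := normalizer_le hM h hR hR1
  have hNP := normalizer_le hM h hP hP1
  have hconj1 : ∀ x ∈ H, ∀ a ∈ A,
      x * a * x⁻¹ ∈ A ⊔ (H ⊓ Subgroup.centralizer (pPart p F)) := by
    intro x hx a ha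
    obtain ⟨c, hc, n, hn, rfl⟩ := hf1 x hx
    have h1 : n * a * n⁻¹ ∈ A := (Subgroup.mem_normalizer_iff.mp (hNR hn) a).mp ha
    have h2 : c * n * a * (c * n)⁻¹ = c * (n * a * n⁻¹) * c⁻¹ := by group
    rw [h2]
    exact Subgroup.mul_mem _ (Subgroup.mul_mem _ (Subgroup.mem_sup_right hc)
      (Subgroup.mem_sup_left h1)) (Subgroup.inv_mem _ (Subgroup.mem_sup_right hc))
  have hconj2 : ∀ x ∈ H, ∀ a ∈ A,
      x * a * x⁻¹ ∈ A ⊔ (H ⊓ Subgroup.centralizer (pPrimePart p F)) := by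
    intro x hx a ha
    obtain ⟨c, hc, n, hn, rfl⟩ := hf2 x hx
    have h1 : n * a * n⁻¹ ∈ A := (Subgroup.mem_normalizer_iff.mp (hNP hn) a).mp ha
    have h2 : c * n * a * (c * n)⁻¹ = c * (n * a * n⁻¹) * c⁻¹ := by group
    rw [h2]
    exact Subgroup.mul_mem _ (Subgroup.mul_mem _ (Subgroup.mem_sup_right hc)
      (Subgroup.mem_sup_left h1)) (Subgroup.inv_mem _ (Subgroup.mem_sup_right hc))
  have hDA : (A ⊔ (H ⊓ Subgroup.centralizer (pPart p F))) ⊓
      (A ⊔ (H ⊓ Subgroup.centralizer (pPrimePart p F))) ≤ A := by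
    apply le_of_pi h ((le_inf le_sup_left le_sup_left).trans Subgroup.le_normalizer)
    intro y hy
    by_contra hne
    obtain ⟨q, k, hq, hqA, hord⟩ := prime_elt h hne
    have hzD := Subgroup.pow_mem _ hy k
    have hcopq : (Nat.card A).Coprime (orderOf (y ^ k)) := by
      rw [hord]; exact ((Nat.Prime.coprime_iff_not_dvd hq).mpr hqA).symm
    have hz1 := mem_of_mem_sup_of_coprime (hAH.trans hHC1) hzD.1 hcopq
    have hz2 := mem_of_mem_sup_of_coprime (hAH.trans hHC2) hzD.2 hcopq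
    have hzF : y ^ k ∈ F := hCF ⟨hz1.1, cent_of_parts p hz1.2 hz2.2⟩
    have hdvd : q ∣ Nat.card A := hord ▸ Subgroup.orderOf_dvd_natCard A (hFA hzF)
    exact hqA hdvd
  intro x hx
  apply mem_normalizer_of_conj_le
  intro a ha
  exact hDA ⟨hconj1 x hx a ha, hconj2 x hx a ha⟩

/-! ### Centralizers of elements normalizing the other factor -/

theorem mem_cent_singleton {u y : G} :
    y ∈ Subgroup.centralizer ({u} : Set G) ↔ u * y = y * u := by
  rw [Subgroup.mem_centralizer_iff]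
  constructor
  · intro hh
    exact hh u rfl
  · intro hh w hw
    rw [Set.mem_singleton_iff] at hw
    rw [hw]; exact hh

theorem cent_le [Finite G] (hM : Min G) {A B : Subgroup G} (h : Fac A B) {p : ℕ} [Fact p.Prime]
    {u : G} (huA : u ∈ A) (huB : u ∈ Subgroup.normalizer (B : Set G)) (hu : orderOf u = p) :
    Subgroup.centralizer ({u} : Set G) ≤ Subgroup.normalizer (A : Set G) := by
  have hp : p.Prime := Fact.out
  have hu1 : u ≠ 1 := by
    rintro rfl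
    rw [orderOf_one] at hu
    exact hp.ne_one hu.symm
  have hpA : p ∣ Nat.card A := hu ▸ Subgroup.orderOf_dvd_natCard A huA
  obtain ⟨P, hP, hP1⟩ := exists_sylOf h p hpA
  obtain ⟨r, hr, hrp, hrA⟩ := exists_other_prime hM h p
  haveI : Fact r.Prime := ⟨hr⟩
  obtain ⟨R, hR, hR1⟩ := exists_sylOf h r hrA
  have huP : u ∈ P := hP.mem_of_orderOf huA hu
  have hH : Subgroup.centralizer ({u} : Set G) ≠ ⊤ := hM.centralizer_ne_top hu1
  have hRH : R ≤ Subgroup.centralizer ({u} : Set G) := by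
    intro y hy
    exact mem_cent_singleton.mpr (hP.commute hR hrp.symm huP hy)
  have hfacH : ∀ x ∈ Subgroup.centralizer ({u} : Set G),
      ∃ a ∈ Subgroup.centralizer ({u} : Set G) ⊓ A,
        ∃ b ∈ Subgroup.centralizer ({u} : Set G) ⊓ B, x = a * b := by
    intro x hx
    obtain ⟨a, ha, b, hb, hxab⟩ := h.fac x
    have hx' := mem_cent_singleton.mp hx
    have hwA : a⁻¹ * (u * a * u⁻¹) ∈ A :=
      A.mul_mem (A.inv_mem ha) (A.mul_mem (A.mul_mem huA ha) (A.inv_mem huA))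
    have hwB : b * (u * b⁻¹ * u⁻¹) ∈ B :=
      B.mul_mem hb ((Subgroup.mem_normalizer_iff.mp huB b⁻¹).mp (B.inv_mem hb))
    have hweq : a⁻¹ * (u * a * u⁻¹) = b * (u * b⁻¹ * u⁻¹) := by
      have h1 : u * (a * b) * u⁻¹ = a * b := by rw [← hxab, hx']; group
      calc a⁻¹ * (u * a * u⁻¹) = a⁻¹ * (u * (a * b) * u⁻¹) * (u * b⁻¹ * u⁻¹) := by group
        _ = a⁻¹ * (a * b) * (u * b⁻¹ * u⁻¹) := by rw [h1]
        _ = b * (u * b⁻¹ * u⁻¹) := by group
    have hw1 : a⁻¹ * (u * a * u⁻¹) = 1 := by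
      have hmem : a⁻¹ * (u * a * u⁻¹) ∈ A ⊓ B := ⟨hwA, hweq ▸ hwB⟩
      rw [h.inf_eq_bot, Subgroup.mem_bot] at hmem
      exact hmem
    have haH : a ∈ Subgroup.centralizer ({u} : Set G) := by
      rw [mem_cent_singleton]
      have e : u * a = a * (a⁻¹ * (u * a * u⁻¹)) * u := by group
      rw [e, hw1, mul_one]
    have hbH : b ∈ Subgroup.centralizer ({u} : Set G) := by
      have e : b = a⁻¹ * x := by rw [hxab]; group
      rw [e]; exact Subgroup.mul_mem _ (Subgroup.inv_mem _ haH) hx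
    exact ⟨a, ⟨haH, ha⟩, b, ⟨hbH, hb⟩, hxab⟩
  obtain ⟨F, hFA, hFH, hHNF, hCF⟩ := loc hM h hH hfacH hR hR1 hRH
  obtain ⟨z, hzP, hz1, hzc⟩ := hP.exists_central h hP1
  have hzH : z ∈ Subgroup.centralizer ({u} : Set G) := mem_cent_singleton.mpr (hzc u huA)
  have hzF : z ∈ F := by
    apply hCF
    refine ⟨hzH, ?_⟩
    show z ∈ Subgroup.centralizer (F : Set G)
    rw [Subgroup.mem_centralizer_iff]
    intro f hf
    exact hzc f (hFA hf)
  have hzS1 : z ∈ pPart p F := ⟨hzF, mem_pow_of_pg hP.pg hzP⟩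
  have hRC1 : R ≤ Subgroup.centralizer ({u} : Set G) ⊓ Subgroup.centralizer (pPart p F) :=
    le_inf hRH (R_le_cent_pPart hP hR hrp.symm hFA)
  have hHC1 : Subgroup.centralizer ({u} : Set G) ≤ Subgroup.normalizer
      ((Subgroup.centralizer ({u} : Set G) ⊓ Subgroup.centralizer (pPart p F) : Subgroup G) :
        Set G) :=
    cent_normalized (fun x hx f hf => pPart_conj (hHNF hx) hf)
  have hf1 := frat hR.pg hR.ind hRC1 hHC1
  have hCz : Subgroup.centralizer ({z} : Set G) ≤ Subgroup.normalizer (A : Set G) := by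
    apply uniq hM h (hM.centralizer_ne_top hz1)
    intro a ha
    exact mem_cent_singleton.mpr (hzc a ha).symm
  intro x hx
  obtain ⟨c, hc, n, hn, rfl⟩ := hf1 x hx
  apply Subgroup.mul_mem
  · apply hCz
    exact mem_cent_singleton.mpr ((Subgroup.mem_centralizer_iff.mp hc.2) z hzS1)
  · exact normalizer_le hM h hR hR1 hn

end Cfsg.Agent.Helper9.KW
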