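import Cfsg.Agent.Helper9.KW2

/-!
# Kegel–Wielandt, coprime case (helper9), part 3: the factors are TI-like.
-/

set_option autoImplicit false

namespace Cfsg.Agent.Helper9.KW

universe u

open scoped Pointwise

variable {G : Type u} [Group G]

theorem pg_unique {p q : ℕ} [Fact p.Prime] [Fact q.Prime] {T : Subgroup G} (h1 : IsPGroup p T)
    (h2 : IsPGroup q T) (hT : T ≠ ⊥) : p = q := by
  by_contra hne
  have hd := IsPGroup.disjoint_of_ne p q hne T T h1 h2
  exact hT (disjoint_self.mp hd)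

theorem isPGroup_inf_of_subgroupOf {t : ℕ} {A H : Subgroup G}
    (hh : IsPGroup t (A.subgroupOf H)) : IsPGroup t ↥(A ⊓ H) := by
  rintro ⟨g, hgA, hgH⟩
  obtain ⟨k, hk⟩ := hh ⟨⟨g, hgH⟩, hgA⟩
  refine ⟨k, ?_⟩
  apply Subtype.ext
  have e := congrArg (fun w : A.subgroupOf H => ((w : H) : G)) hk
  simpa using e

theorem card_subgroupOf_dvd [Finite G] {A H : Subgroup G} :
    Nat.card (A.subgroupOf H) ∣ Nat.card A := by
  rw [← Subgroup.inf_subgroupOf_right A H,
    Nat.card_congr (Subgroup.subgroupOfEquivOfLe (inf_le_right : A ⊓ H ≤ H)).toEquiv]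
  exact Subgroup.card_dvd_of_le inf_le_left

theorem ti_caseII [Finite G] (hM : Min G) {A B : Subgroup G} (h : Fac A B) {p r : ℕ}
    [Fact p.Prime] [Fact r.Prime] {P R H : Subgroup G} (hP : SylOf A p P) (hR : SylOf A r R)
    (hpr : p ≠ r) (hP1 : P ≠ ⊥) (hR1 : R ≠ ⊥) (hRH : R ≤ H)
    (hTH : ∀ t : ℕ, t.Prime → t ≠ p → ∀ T : Subgroup G, SylOf A t T → T ≤ H)
    (hzH : ∀ z ∈ P, (∀ a ∈ A, a * z = z * a) → z ∈ H)
    (hSyl : ¬ p ∣ (P ⊓ H).relIndex H) (hpH : P ⊓ H ≠ ⊥)
    (hIIa : H ⊓ Subgroup.normalizer (A : Set G) ≤ A) : H ≤ A := by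
  -- Sylow subgroups of `A`, chosen to be `P` at `p`
  have hsyl : ∀ t : ℕ, t.Prime → t ∣ Nat.card A → ∃ T : Subgroup G, SylOf A t T ∧ T ≠ ⊥ ∧
      ¬ t ∣ (T ⊓ H).relIndex H ∧ (t = p → T = P) := by
    intro t ht htA
    haveI : Fact t.Prime := ⟨ht⟩
    by_cases htp : t = p
    · subst htp
      exact ⟨P, hP, hP1, hSyl, fun _ => rfl⟩
    · obtain ⟨T, hT, hT1⟩ := exists_sylOf h t htA
      refine ⟨T, hT, hT1, ?_, fun e => absurd e htp⟩
      have hTle : T ≤ H := hTH t ht htp T hT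
      rw [inf_eq_left.mpr hTle]
      exact fun hd => hT.ind (hd.trans (Subgroup.relIndex_dvd_index_of_le hTle))
  -- normalizers of the Sylow subgroups of `A ⊓ H`
  have hnormT : ∀ t : ℕ, t.Prime → ∀ T : Subgroup G, SylOf A t T → T ≠ ⊥ → (t = p → T = P) →
      ∀ n ∈ H, n ∈ Subgroup.normalizer ((T ⊓ H : Subgroup G) : Set G) → n ∈ A := by
    intro t ht T hT hT1 hTP n hnH hn
    haveI : Fact t.Prime := ⟨ht⟩
    by_cases htp : t = p
    · subst htp
      obtain rfl := hTP rfl
      obtain ⟨z, hzP, hz1, hzc⟩ := hP.exists_central h hP1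
      have hzHm : z ∈ H := hzH z hzP hzc
      have hz' : n⁻¹ * z * n ∈ T := ((Subgroup.mem_normalizer_iff''.mp hn z).mp ⟨hzP, hzHm⟩).1
      have hCz : Subgroup.centralizer ({z} : Set G) ≤ Subgroup.normalizer (A : Set G) := by
        apply uniq hM h (hM.centralizer_ne_top hz1)
        intro a ha
        exact mem_cent_singleton.mpr (hzc a ha).symm
      have hnR : n ∈ Subgroup.normalizer (R : Set G) := by
        apply mem_normalizer_of_conj_le
        intro y hy
        have hcomm := hP.commute hR hpr hz' hy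
        have hyA : n * y * n⁻¹ ∈ A := by
          apply hIIa
          refine ⟨H.mul_mem (H.mul_mem hnH (hRH hy)) (H.inv_mem hnH), ?_⟩
          apply hCz
          rw [mem_cent_singleton]
          calc z * (n * y * n⁻¹) = n * (n⁻¹ * z * n * y) * n⁻¹ := by group
            _ = n * (y * (n⁻¹ * z * n)) * n⁻¹ := by rw [hcomm]
            _ = n * y * n⁻¹ * z := by group
        obtain ⟨k, hk⟩ := mem_pow_of_pg hR.pg hy
        apply hR.mem_of_pow hyA (k := k)
        rw [conj_pow, hk]; group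
      exact hIIa ⟨hnH, normalizer_le hM h hR hR1 hnR⟩
    · have hTle : T ≤ H := hTH t ht htp T hT
      rw [inf_eq_left.mpr hTle] at hn
      exact hIIa ⟨hnH, normalizer_le hM h hT hT1 hn⟩
  have hnot : ∀ t : ℕ, t.Prime → ∀ S : Sylow t H, (S : Subgroup H) ≠ A.subgroupOf H := by
    intro t ht S hS
    haveI : Fact t.Prime := ⟨ht⟩
    have h1 : IsPGroup t (A.subgroupOf H) := by rw [← hS]; exact S.2
    have h2 : IsPGroup t ↥(A ⊓ H) := isPGroup_inf_of_subgroupOf h1
    have h3 : t = r := pg_unique (h2.to_le (le_inf hR.le hRH)) hR.pg hR1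
    have h4 : t = p := pg_unique (h2.to_le (inf_le_inf_right H hP.le)) (hP.pg.to_le inf_le_left) hpH
    exact hpr (h4.symm.trans h3)
  have hnorm : ∀ t : ℕ, t.Prime → t ∣ Nat.card (A.subgroupOf H) →
      ∀ Y : Sylow t (A.subgroupOf H),
      Subgroup.normalizer ((((Y : Subgroup (A.subgroupOf H)).map (A.subgroupOf H).subtype :
        Subgroup H)) : Set H) = A.subgroupOf H := by
    intro t ht htAH Y
    haveI : Fact t.Prime := ⟨ht⟩
    obtain ⟨T, hT, hT1, -, hTP⟩ := hsyl t ht (htAH.trans card_subgroupOf_dvd)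
    have hY1a : ∀ w : H, w ∈ (Y : Subgroup (A.subgroupOf H)).map (A.subgroupOf H).subtype →
        (w : G) ∈ T := by
      intro w hw
      have hY2 : IsPGroup t ↥(((Y : Subgroup (A.subgroupOf H)).map
          (A.subgroupOf H).subtype).map H.subtype) := (Y.2.map _).map _
      have hY2A : ((Y : Subgroup (A.subgroupOf H)).map (A.subgroupOf H).subtype).map H.subtype
          ≤ A := by
        rintro _ ⟨w', hw', rfl⟩
        obtain ⟨y, hy, rfl⟩ := hw'
        exact Subgroup.mem_subgroupOf.mp y.2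
      exact hT.le_of_pg hY2A hY2 ⟨w, hw, rfl⟩
    have hY1b : ∀ w : H, (w : G) ∈ T →
        w ∈ (Y : Subgroup (A.subgroupOf H)).map (A.subgroupOf H).subtype := by
      intro w hw
      have hT' : IsPGroup t ((T.subgroupOf H).subgroupOf (A.subgroupOf H)) :=
        (hT.pg.comap_subtype).comap_subtype
      have hYT' : (Y : Subgroup (A.subgroupOf H)) ≤
          (T.subgroupOf H).subgroupOf (A.subgroupOf H) := by
        intro y hy
        rw [Subgroup.mem_subgroupOf, Subgroup.mem_subgroupOf]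
        exact hY1a (y : H) ⟨y, hy, rfl⟩
      have heq := Y.is_maximal' hT' hYT'
      have hwA : w ∈ A.subgroupOf H := Subgroup.mem_subgroupOf.mpr (hT.le hw)
      have hmem : (⟨w, hwA⟩ : A.subgroupOf H) ∈ (Y : Subgroup (A.subgroupOf H)) := by
        rw [← heq, Subgroup.mem_subgroupOf, Subgroup.mem_subgroupOf]
        exact hw
      exact ⟨⟨w, hwA⟩, hmem, rfl⟩
    apply le_antisymm
    · intro n hn
      rw [Subgroup.mem_subgroupOf]
      apply hnormT t ht T hT hT1 hTP (n : G) n.2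
      apply mem_normalizer_of_conj_le
      rintro y ⟨hyT, hyH⟩
      have h1 : (⟨y, hyH⟩ : H) ∈ (Y : Subgroup (A.subgroupOf H)).map (A.subgroupOf H).subtype :=
        hY1b ⟨y, hyH⟩ hyT
      have h2 := (Subgroup.mem_normalizer_iff.mp hn ⟨y, hyH⟩).mp h1
      have h3 := hY1a _ h2
      exact ⟨by simpa using h3, H.mul_mem (H.mul_mem n.2 hyH) (H.inv_mem n.2)⟩
    · intro n hn
      rw [Subgroup.mem_subgroupOf] at hn
      apply mem_normalizer_of_conj_le
      intro w hw
      apply hY1b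
      have h1 := hY1a w hw
      have h2 := (Subgroup.mem_normalizer_iff.mp (hT.norm hn) (w : G)).mp h1
      simpa using h2
  obtain ⟨K, hKn, hKc⟩ := Cfsg.Agent.S0558.result (A.subgroupOf H) hnot hnorm
  have hKA : ∀ k : H, k ∈ K → (k : G) ∈ A → k = 1 := by
    intro k hkK hkA
    have hd := hKc.disjoint
    rw [disjoint_iff] at hd
    have hk : k ∈ K ⊓ A.subgroupOf H := ⟨hkK, Subgroup.mem_subgroupOf.mpr hkA⟩
    rw [hd] at hk
    exact Subgroup.mem_bot.mp hk
  by_cases hK1 : K = ⊥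
  · rw [hK1, Subgroup.isComplement'_bot_left] at hKc
    intro y hy
    have hmem : (⟨y, hy⟩ : H) ∈ A.subgroupOf H := by rw [hKc]; exact Subgroup.mem_top _
    exact Subgroup.mem_subgroupOf.mp hmem
  · exfalso
    have hcopK : ∀ t : ℕ, t.Prime → t ∣ Nat.card K → ¬ t ∣ Nat.card A := by
      intro t ht htK htA
      haveI : Fact t.Prime := ⟨ht⟩
      obtain ⟨T, hT, hT1, hTind, -⟩ := hsyl t ht htA
      obtain ⟨k, hk⟩ := exists_prime_orderOf_dvd_card' (G := K) t htK
      have hk0 : orderOf ((k : H) : G) = t := by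
        rw [Subgroup.orderOf_coe, Subgroup.orderOf_coe]; exact hk
      have hZ : IsPGroup t (Subgroup.zpowers ((k : H) : G)) :=
        IsPGroup.of_card (n := 1) (by rw [Nat.card_zpowers, hk0, pow_one])
      have hZH : Subgroup.zpowers ((k : H) : G) ≤ H := Subgroup.zpowers_le.mpr (k : H).2
      obtain ⟨c, hc, hcT⟩ :=
        conj_in_subgroup (hT.pg.to_le inf_le_left) inf_le_right hTind hZ hZH
      have h1 : c * ((k : H) : G) * c⁻¹ ∈ T ⊓ H := hcT _ (Subgroup.mem_zpowers _)
      have h2 : (⟨c, hc⟩ : H) * (k : H) * (⟨c, hc⟩ : H)⁻¹ = 1 := by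
        apply hKA _ (hKn.conj_mem (k : H) k.2 ⟨c, hc⟩)
        have e : ((⟨c, hc⟩ * (k : H) * (⟨c, hc⟩ : H)⁻¹ : H) : G) = c * ((k : H) : G) * c⁻¹ := by
          simp
        rw [e]; exact hT.le h1.1
      have h3 : (k : H) = 1 := conj_eq_one_iff.mp h2
      have h4 : orderOf ((k : H) : G) = 1 := by rw [h3]; simp
      rw [hk0] at h4
      exact ht.one_lt.ne' h4
    have hK'card : Nat.card (K.map H.subtype) = Nat.card K :=
      Subgroup.card_map_of_injective H.subtype_injective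
    have hK'B : ∀ q : ℕ, q.Prime → q ∣ Nat.card (K.map H.subtype) → q ∣ Nat.card B := by
      intro q hq hqK
      have h1 : q ∣ Nat.card G := hqK.trans (Subgroup.card_subgroup_dvd_card _)
      rw [← h.card_mul] at h1
      rcases (Nat.Prime.dvd_mul hq).mp h1 with h2 | h2
      · exact absurd h2 (hcopK q hq (hK'card ▸ hqK))
      · exact h2
    obtain ⟨g2, hg2⟩ := Cfsg.Agent.S0581.result B (K.map H.subtype) h.nilB
      (by rw [h.symm.index_eq]; exact h.cop.symm) hK'B
    have hK'1 : Nat.card (K.map H.subtype) ≠ 1 := by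
      rw [hK'card]
      intro e
      exact hK1 ((Subgroup.eq_bot_iff_card K).mpr e)
    obtain ⟨q, hq, hqK⟩ := Nat.exists_prime_and_dvd hK'1
    haveI : Fact q.Prime := ⟨hq⟩
    have hqA : ¬ q ∣ Nat.card A := hcopK q hq (hK'card ▸ hqK)
    have hqB : q ∣ Nat.card B := hK'B q hq hqK
    obtain ⟨Q, hQ, hQ1⟩ := exists_sylOf h.symm q hqB
    have hQ2 := hQ.conj g2
    have hTq : IsPGroup q ↥(K.map H.subtype ⊓ MulAut.conj g2 • Q) := hQ2.pg.to_le inf_le_right
    have hTq1 : K.map H.subtype ⊓ MulAut.conj g2 • Q ≠ ⊥ := by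
      obtain ⟨k, hk⟩ := exists_prime_orderOf_dvd_card' (G := K.map H.subtype) q hqK
      have hk0 : orderOf (k : G) = q := by rw [Subgroup.orderOf_coe]; exact hk
      have hkQ : (k : G) ∈ MulAut.conj g2 • Q := hQ2.mem_of_orderOf (hg2 k.2) hk0
      intro e
      have hmem : (k : G) ∈ K.map H.subtype ⊓ MulAut.conj g2 • Q := ⟨k.2, hkQ⟩
      rw [e, Subgroup.mem_bot] at hmem
      rw [hmem, orderOf_one] at hk0
      exact hq.one_lt.ne hk0
    have hN : R ≤ Subgroup.normalizer
        ((K.map H.subtype ⊓ MulAut.conj g2 • Q : Subgroup G) : Set G) := by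
      intro y hy
      apply mem_normalizer_of_conj_le
      rintro w ⟨hwK, hwQ⟩
      have h1 : y * w * y⁻¹ ∈ K.map H.subtype := by
        obtain ⟨k0, hk0, rfl⟩ := hwK
        exact ⟨⟨y, hRH hy⟩ * k0 * ⟨y, hRH hy⟩⁻¹, hKn.conj_mem k0 hk0 ⟨y, hRH hy⟩, by simp⟩
      refine ⟨h1, ?_⟩
      obtain ⟨j, hj⟩ := mem_pow_of_pg hQ2.pg hwQ
      apply hQ2.mem_of_pow (hg2 h1) (k := j)
      rw [conj_pow, hj]; group
    exact no_q hM h hR hR1 hqA hTq hTq1 hN

theorem ti_core [Finite G] (hM : Min G) {A B : Subgroup G} (h : Fac A B) {p : ℕ} [Fact p.Prime]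
    {x : G} (hxA : x ∈ A) (hx : orderOf x = p) {P : Subgroup G} (hP : SylOf A p P)
    (hSyl : ¬ p ∣ (P ⊓ Subgroup.centralizer ({x} : Set G)).relIndex
      (Subgroup.centralizer ({x} : Set G)))
    (g : G) (hg : x ∈ MulAut.conj g • A) : g ∈ Subgroup.normalizer (A : Set G) := by
  have hp : p.Prime := Fact.out
  have hx1 : x ≠ 1 := by
    rintro rfl
    rw [orderOf_one] at hx
    exact hp.ne_one hx.symm
  have hxP : x ∈ P := hP.mem_of_orderOf hxA hx
  have hxH : x ∈ Subgroup.centralizer ({x} : Set G) := mem_cent_singleton.mpr rfl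
  have hP1 : P ≠ ⊥ := by
    intro e
    rw [e, Subgroup.mem_bot] at hxP
    exact hx1 hxP
  obtain ⟨r, hr, hrp, hrA⟩ := exists_other_prime hM h p
  haveI : Fact r.Prime := ⟨hr⟩
  obtain ⟨R, hR, hR1⟩ := exists_sylOf h r hrA
  have hRH : R ≤ Subgroup.centralizer ({x} : Set G) := fun y hy =>
    mem_cent_singleton.mpr (hP.commute hR hrp.symm hxP hy)
  have hg' : g⁻¹ * x * g ∈ A := mem_conj.mp hg
  have hgP : g⁻¹ * x * g ∈ P := by
    apply hP.mem_of_orderOf hg'
    have e : g⁻¹ * x * g = g⁻¹ * x * g⁻¹⁻¹ := by rw [inv_inv]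
    rw [e, orderOf_conj', hx]
  have hgRH : ∀ y ∈ R, g * y * g⁻¹ ∈ Subgroup.centralizer ({x} : Set G) := by
    intro y hy
    rw [mem_cent_singleton]
    have h1 := hP.commute hR hrp.symm hgP hy
    calc x * (g * y * g⁻¹) = g * (g⁻¹ * x * g * y) * g⁻¹ := by group
      _ = g * (y * (g⁻¹ * x * g)) * g⁻¹ := by rw [h1]
      _ = g * y * g⁻¹ * x := by group
  have hkey : (∀ y ∈ R, g * y * g⁻¹ ∈ A) → g ∈ Subgroup.normalizer (A : Set G) := by
    intro hall
    apply normalizer_le hM h hR hR1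
    apply mem_normalizer_of_conj_le
    intro y hy
    obtain ⟨k, hk⟩ := mem_pow_of_pg hR.pg hy
    apply hR.mem_of_pow (hall y hy) (k := k)
    rw [conj_pow, hk]; group
  by_cases hI : ∃ y ∈ Subgroup.centralizer ({x} : Set G) ⊓ Subgroup.normalizer (A : Set G),
      (orderOf y).Prime ∧ ¬ orderOf y ∣ Nat.card A
  · obtain ⟨y, ⟨hyH, hyN⟩, hyq, hyA⟩ := hI
    haveI : Fact (orderOf y).Prime := ⟨hyq⟩
    have hqG : orderOf y ∣ Nat.card G := orderOf_dvd_natCard y
    have hqB : orderOf y ∣ Nat.card B := by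
      rw [← h.card_mul] at hqG
      exact ((Nat.Prime.dvd_mul hyq).mp hqG).resolve_left hyA
    obtain ⟨Q, hQ, hQ1⟩ := exists_sylOf h.symm (orderOf y) hqB
    have hT : IsPGroup (orderOf y) (Subgroup.zpowers y) :=
      IsPGroup.of_card (n := 1) (by rw [Nat.card_zpowers, pow_one])
    obtain ⟨g2, hg2⟩ := sylow_conj_le hQ.pg hQ.ind hT
    have hyB1 : y ∈ MulAut.conj g2 • B :=
      (Subgroup.pointwise_smul_le_pointwise_smul_iff.mpr hQ.le) (hg2 (Subgroup.mem_zpowers y))
    have hfac1 : Fac (MulAut.conj g2 • B) A := (h.conj_right g2).symm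
    have h1 := cent_le hM hfac1 hyB1 hyN rfl
    have hxN : x ∈ Subgroup.normalizer ((MulAut.conj g2 • B : Subgroup G) : Set G) :=
      h1 (mem_cent_singleton.mpr (mem_cent_singleton.mp hyH).symm)
    have h2 := cent_le hM (h.conj_right g2) hxA hxN hx
    apply hkey
    intro w hw
    apply mem_of_normalizer_pi h (h2 (hgRH w hw))
    rw [conj_pow, pow_card_of_mem (hR.le hw)]; group
  · have hIIa : Subgroup.centralizer ({x} : Set G) ⊓ Subgroup.normalizer (A : Set G) ≤ A := by
      rintro t ⟨htH, htN⟩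
      apply mem_of_normalizer_pi h htN
      by_contra hne
      obtain ⟨q, k, hq, hqA, hord⟩ := prime_elt h hne
      exact hI ⟨t ^ k, ⟨Subgroup.pow_mem _ htH k, Subgroup.pow_mem _ htN k⟩,
        by rw [hord]; exact hq, by rw [hord]; exact hqA⟩
    have hHA : Subgroup.centralizer ({x} : Set G) ≤ A := by
      apply ti_caseII hM h hP hR hrp.symm hP1 hR1 hRH ?_ ?_ hSyl ?_ hIIa
      · intro t ht htp T hT y hy
        haveI : Fact t.Prime := ⟨ht⟩
        exact mem_cent_singleton.mpr (hP.commute hT (Ne.symm htp) hxP hy)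
      · intro z hzP hzc
        exact mem_cent_singleton.mpr (hzc x hxA)
      · intro e
        have hmem : x ∈ P ⊓ Subgroup.centralizer ({x} : Set G) := ⟨hxP, hxH⟩
        rw [e, Subgroup.mem_bot] at hmem
        exact hx1 hmem
    apply hkey
    intro y hy
    exact hHA (hgRH y hy)

/-- An element of prime order of `A` lies in no other conjugate of `A`. -/
theorem ti [Finite G] (hM : Min G) {A B : Subgroup G} (h : Fac A B) {x : G} (hxA : x ∈ A)
    (hx : (orderOf x).Prime) (g : G) (hg : x ∈ MulAut.conj g • A) :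
    g ∈ Subgroup.normalizer (A : Set G) := by
  haveI : Fact (orderOf x).Prime := ⟨hx⟩
  have hpA : orderOf x ∣ Nat.card A := Subgroup.orderOf_dvd_natCard A hxA
  obtain ⟨P, hP, hP1⟩ := exists_sylOf h (orderOf x) hpA
  have hxH : x ∈ Subgroup.centralizer ({x} : Set G) := mem_cent_singleton.mpr rfl
  have hT : IsPGroup (orderOf x)
      (Subgroup.zpowers (⟨x, hxH⟩ : Subgroup.centralizer ({x} : Set G))) :=
    IsPGroup.of_card (n := 1) (by rw [Nat.card_zpowers, pow_one, Subgroup.orderOf_mk])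
  obtain ⟨S, hS⟩ := hT.exists_le_sylow
  have hS2 : IsPGroup (orderOf x)
      ((S : Subgroup (Subgroup.centralizer ({x} : Set G))).map
        (Subgroup.centralizer ({x} : Set G)).subtype) := S.2.map _
  obtain ⟨g1, hg1⟩ := sylow_conj_le hP.pg hP.ind hS2
  have hfac1 := h.conj_both g1
  have hP1' := hP.conj g1
  have hxS2 : x ∈ (S : Subgroup (Subgroup.centralizer ({x} : Set G))).map
      (Subgroup.centralizer ({x} : Set G)).subtype :=
    ⟨⟨x, hxH⟩, hS (Subgroup.mem_zpowers _), rfl⟩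
  have hxA1 : x ∈ MulAut.conj g1 • A := hP1'.le (hg1 hxS2)
  have hSyl : ¬ orderOf x ∣ ((MulAut.conj g1 • P) ⊓ Subgroup.centralizer ({x} : Set G)).relIndex
      (Subgroup.centralizer ({x} : Set G)) := by
    intro hd
    have h1 : ((MulAut.conj g1 • P) ⊓ Subgroup.centralizer ({x} : Set G)).relIndex
        (Subgroup.centralizer ({x} : Set G)) ∣
        ((S : Subgroup (Subgroup.centralizer ({x} : Set G))).map
          (Subgroup.centralizer ({x} : Set G)).subtype).relIndex
            (Subgroup.centralizer ({x} : Set G)) :=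
      Subgroup.relIndex_dvd_of_le_left _ (le_inf hg1 (Subgroup.map_subtype_le _))
    have h2 : ((S : Subgroup (Subgroup.centralizer ({x} : Set G))).map
          (Subgroup.centralizer ({x} : Set G)).subtype).relIndex
            (Subgroup.centralizer ({x} : Set G)) =
        (S : Subgroup (Subgroup.centralizer ({x} : Set G))).index := by
      rw [Subgroup.relIndex, Subgroup.subgroupOf,
        Subgroup.comap_map_eq_self_of_injective (Subgroup.subtype_injective _)]
    exact S.not_dvd_index (h2 ▸ hd.trans h1)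
  have hcore : ∀ g' : G, x ∈ MulAut.conj g' • (MulAut.conj g1 • A) →
      g' ∈ Subgroup.normalizer ((MulAut.conj g1 • A : Subgroup G) : Set G) :=
    fun g' hg' => ti_core hM hfac1 hxA1 rfl hP1' hSyl g' hg'
  have hg1N : g1⁻¹ ∈ Subgroup.normalizer ((MulAut.conj g1 • A : Subgroup G) : Set G) := by
    apply hcore
    rw [mem_conj, mem_conj]
    simpa [mul_assoc] using hxA
  have hg1N' : g1 ∈ Subgroup.normalizer ((MulAut.conj g1 • A : Subgroup G) : Set G) := by
    have h3 := Subgroup.inv_mem _ hg1N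
    rwa [inv_inv] at h3
  have hAeq : MulAut.conj g1 • A = A := by
    ext y
    rw [(Subgroup.mem_normalizer_iff.mp hg1N' y), mem_conj]
    simp [mul_assoc]
  rw [hAeq] at hcore
  exact hcore g hg

end Cfsg.Agent.Helper9.KW
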