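import Mathlib
import Cfsg.Prelude.Def_Classical

set_option autoImplicit false

/-!
Witt bound for the minus-type form `quadFormMinus m F a b` (anisotropic binary part), any
characteristic: a totally singular subspace has dimension at most `m`.  Pure linear algebra
(rank-nullity for the projection to the `x`-coordinates plus the dimension of a dot-product
annihilator); no polar form is used.
-/

namespace Cfsg.Agent.Helper9.NS5a

open Module

variable {F : Type*} [Field F]

/-- the `x`-coordinates -/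
noncomputable def rho (m : ℕ) : ((Fin m ⊕ Fin m) ⊕ Fin 2 → F) →ₗ[F] (Fin m → F) :=
  LinearMap.funLeft F F (fun i : Fin m => (Sum.inl (Sum.inl i) : (Fin m ⊕ Fin m) ⊕ Fin 2))

/-- the `y`-coordinates -/
noncomputable def eta (m : ℕ) : ((Fin m ⊕ Fin m) ⊕ Fin 2 → F) →ₗ[F] (Fin m → F) :=
  LinearMap.funLeft F F (fun i : Fin m => (Sum.inl (Sum.inr i) : (Fin m ⊕ Fin m) ⊕ Fin 2))

theorem rho_apply (m : ℕ) (v : (Fin m ⊕ Fin m) ⊕ Fin 2 → F) (i : Fin m) :
    rho m v i = v (Sum.inl (Sum.inl i)) := rfl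

theorem eta_apply (m : ℕ) (v : (Fin m ⊕ Fin m) ⊕ Fin 2 → F) (i : Fin m) :
    eta m v i = v (Sum.inl (Sum.inr i)) := rfl

theorem quad_eq (m : ℕ) (a b : F) (v : (Fin m ⊕ Fin m) ⊕ Fin 2 → F) :
    Cfsg.quadFormMinus m F a b v = (rho m v) ⬝ᵥ (eta m v)
      + (v (.inr 0) ^ 2 + a * v (.inr 0) * v (.inr 1) + b * v (.inr 1) ^ 2) := rfl

/-- a totally singular vector with zero `x`-part has zero anisotropic part -/
theorem key1 (m : ℕ) (a b : F)
    (hab : ∀ x y : F, x ^ 2 + a * x * y + b * y ^ 2 = 0 → x = 0 ∧ y = 0)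
    (w₀ : (Fin m ⊕ Fin m) ⊕ Fin 2 → F) (hw₀ : Cfsg.quadFormMinus m F a b w₀ = 0)
    (h0 : rho m w₀ = 0) : w₀ (.inr 0) = 0 ∧ w₀ (.inr 1) = 0 := by
  rw [quad_eq, h0, zero_dotProduct, zero_add] at hw₀
  exact hab _ _ hw₀

/-- the `x`-part of any vector of a totally singular subspace is dot-orthogonal to the `y`-part of
any of its vectors with zero `x`-part -/
theorem key2 (m : ℕ) (a b : F)
    (hab : ∀ x y : F, x ^ 2 + a * x * y + b * y ^ 2 = 0 → x = 0 ∧ y = 0)
    (w w₀ : (Fin m ⊕ Fin m) ⊕ Fin 2 → F) (hw : Cfsg.quadFormMinus m F a b w = 0)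
    (hw₀ : Cfsg.quadFormMinus m F a b w₀ = 0)
    (hsum : Cfsg.quadFormMinus m F a b (w + w₀) = 0)
    (h0 : rho m w₀ = 0) : (rho m w) ⬝ᵥ (eta m w₀) = 0 := by
  obtain ⟨z0, z1⟩ := key1 m a b hab w₀ hw₀ h0
  rw [quad_eq] at hw hsum
  rw [map_add, map_add, h0, add_zero, dotProduct_add] at hsum
  simp only [Pi.add_apply, z0, z1, add_zero] at hsum
  linear_combination hsum - hw

/-- **Witt bound, minus type** (any characteristic). -/
theorem ts_minus_gen (m : ℕ) (a b : F)
    (hab : ∀ x y : F, x ^ 2 + a * x * y + b * y ^ 2 = 0 → x = 0 ∧ y = 0)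
    (W : Submodule F ((Fin m ⊕ Fin m) ⊕ Fin 2 → F))
    (hW : ∀ w ∈ W, Cfsg.quadFormMinus m F a b w = 0) : Module.finrank F W ≤ m := by
  classical
  set ρW : W →ₗ[F] (Fin m → F) := (rho m).comp W.subtype with hρW
  set g : LinearMap.ker ρW →ₗ[F] (Fin m → F) :=
    ((eta m).comp W.subtype).comp (LinearMap.ker ρW).subtype with hg
  have hker : ∀ w₀ : LinearMap.ker ρW, rho m ((w₀ : W) : (Fin m ⊕ Fin m) ⊕ Fin 2 → F) = 0 := by
    intro w₀
    have := w₀.2
    rw [LinearMap.mem_ker] at this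
    exact this
  have hginj : Function.Injective g := by
    rw [injective_iff_map_eq_zero]
    intro w₀ h0
    have h1 := hker w₀
    have h2 := key1 m a b hab ((w₀ : W) : (Fin m ⊕ Fin m) ⊕ Fin 2 → F)
      (hW _ (w₀ : W).2) h1
    apply Subtype.ext
    apply Subtype.ext
    funext j
    rcases j with (j | j) | j
    · exact congrFun h1 j
    · exact congrFun h0 j
    · fin_cases j
      · exact h2.1
      · exact h2.2
  have hrank := LinearMap.finrank_range_add_finrank_ker ρW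
  have hgr : finrank F (LinearMap.range g) = finrank F (LinearMap.ker ρW) :=
    LinearMap.finrank_range_of_inj hginj
  set Φ : Subspace F (Module.Dual F (Fin m → F)) :=
    (LinearMap.range g).map (dotProductEquiv F (Fin m)).toLinearMap with hΦ
  have hΦr : finrank F Φ = finrank F (LinearMap.range g) :=
    (Submodule.equivMapOfInjective _ (dotProductEquiv F (Fin m)).injective _).finrank_eq.symm
  have hle : LinearMap.range ρW ≤ Φ.dualCoannihilator := by
    rintro x ⟨w, rfl⟩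
    rw [Submodule.mem_dualCoannihilator]
    rintro φ ⟨y, ⟨w₀, rfl⟩, rfl⟩
    have h := key2 m a b hab (w : (Fin m ⊕ Fin m) ⊕ Fin 2 → F)
      ((w₀ : W) : (Fin m ⊕ Fin m) ⊕ Fin 2 → F) (hW _ w.2) (hW _ (w₀ : W).2)
      (hW _ (W.add_mem w.2 (w₀ : W).2)) (hker w₀)
    show (g w₀) ⬝ᵥ (ρW w) = 0
    rw [dotProduct_comm]
    exact h
  have h3 := Subspace.finrank_add_finrank_dualCoannihilator_eq Φ
  have h4 := Submodule.finrank_mono hle
  have h5 : finrank F (Fin m → F) = m := by simp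
  omega

/-- The Witt bound in the form requested for S5986 (`hch` is not needed). -/
theorem ts_minus {m : ℕ} {a b : F}
    (hab : ∀ x y : F, x ^ 2 + a * x * y + b * y ^ 2 = 0 → x = 0 ∧ y = 0) (_hch : (2 : F) = 0)
    (W : Submodule F ((Fin m ⊕ Fin m) ⊕ Fin 2 → F))
    (hW : ∀ w ∈ W, Cfsg.quadFormMinus m F a b w = 0) : Module.finrank F W ≤ m :=
  ts_minus_gen m a b hab W hW

end Cfsg.Agent.Helper9.NS5a
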