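-- helper9: generalized quaternion Sylow 2-subgroups: concrete data, the commutator subgroup, cyclic-group facts.
import Mathlib
import Cfsg.Agent.Helper9.Dihedral
import Cfsg.Agent.Helper9.StrEmb
import Cfsg.Agent.Helper14.Conj

set_option autoImplicit false

namespace Cfsg.Agent.Helper9

/-- If an odd-order `x` normalizes `Q ≤ S`, where `R` has "index two" in the 2-group `S`, and `x`
centralizes `Q ∩ R`, then `x` centralizes `Q`. -/
theorem idx_two_centralizes_of_inter {X : Type*} [Group X] [Finite X] (S : Subgroup X)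
    (hS2 : IsPGroup 2 S) (R : Subgroup X)
    (hmul : ∀ s ∈ S, ∀ t ∈ S, s ∉ R → t ∉ R → s * t ∈ R)
    (Q : Subgroup X) (hQS : Q ≤ S) (x : X) (hxQ : ∀ q ∈ Q, x * q * x⁻¹ ∈ Q)
    (hx : Odd (orderOf x))
    (hB : ∀ q ∈ Q, q ∈ R → x * q = q * x) : ∀ q ∈ Q, x * q = q * x := by
  intro q hq
  by_cases hqa : q ∈ R
  · exact hB q hq hqa
  have hq'Q : x * q * x⁻¹ ∈ Q := hxQ q hq
  have hq'a : x * q * x⁻¹ ∉ R := by
    intro hmem
    have h1 := hB _ hq'Q hmem
    have h2 : x * q * x⁻¹ = q := by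
      have h3 := congrArg (fun y => x⁻¹ * y) h1
      simpa [mul_assoc] using h3
    rw [h2] at hmem
    exact hqa hmem
  obtain ⟨w, hw⟩ : ∃ w, w = q⁻¹ * (x * q * x⁻¹) := ⟨_, rfl⟩
  have hqi : q⁻¹ ∉ R := fun h => hqa (by simpa using R.inv_mem h)
  have hwa : w ∈ R := by
    rw [hw]; exact hmul q⁻¹ (S.inv_mem (hQS hq)) _ (hQS hq'Q) hqi hq'a
  have hwQ : w ∈ Q := by rw [hw]; exact Q.mul_mem (Q.inv_mem hq) hq'Q
  have hcw : Commute x w := hB w hwQ hwa
  have hq' : x * q * x⁻¹ = q * w := by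
    rw [hw]; group
  have hiter : ∀ k : ℕ, x ^ k * q * (x ^ k)⁻¹ = q * w ^ k := by
    intro k
    induction k with
    | zero => simp
    | succ k ih =>
      have e1 : x ^ (k + 1) * q * (x ^ (k + 1))⁻¹ = x * (x ^ k * q * (x ^ k)⁻¹) * x⁻¹ := by
        rw [pow_succ', mul_inv_rev]; simp only [mul_assoc]
      have e2 : x * (q * w ^ k) * x⁻¹ = (x * q * x⁻¹) * (x * w ^ k * x⁻¹) := by group
      have e3 : x * w ^ k * x⁻¹ = w ^ k := by
        rw [(hcw.pow_right k).eq, mul_inv_cancel_right]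
      rw [e1, ih, e2, hq', e3, pow_succ', mul_assoc]
  have h5 := hiter (orderOf x)
  rw [pow_orderOf_eq_one, one_mul, inv_one, mul_one] at h5
  have hw1 : w ^ orderOf x = 1 := mul_eq_left.1 h5.symm
  obtain ⟨f, hf⟩ := exists_orderOf_eq_two_pow S hS2 w (hQS hwQ)
  have hdvd : orderOf w ∣ orderOf x := orderOf_dvd_of_pow_eq_one hw1
  have hw_one : w = 1 := by
    rw [← orderOf_eq_one_iff, hf]
    cases f with
    | zero => rfl
    | succ f' =>
      exfalso
      rw [hf] at hdvd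
      have h2 : 2 ∣ orderOf x := dvd_trans (dvd_pow_self 2 (Nat.succ_ne_zero f')) hdvd
      exact (Nat.not_even_iff_odd.2 hx) (even_iff_two_dvd.2 h2)
  rw [hw_one, mul_one] at hq'
  exact mul_inv_eq_iff_eq_mul.1 hq'

/-- `A ^ gcd(o(A), j)` is a power of `A ^ j`. -/
theorem pow_gcd_mem_zpowers {G : Type*} [Group G] (A : G) (j : ℕ) :
    A ^ (Nat.gcd (orderOf A) j) ∈ Subgroup.zpowers (A ^ j) := by
  rw [Subgroup.mem_zpowers_iff]
  refine ⟨Nat.gcdB (orderOf A) j, ?_⟩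
  have h := Nat.gcd_eq_gcd_ab (orderOf A) j
  calc (A ^ j) ^ (Nat.gcdB (orderOf A) j) = A ^ ((j : ℤ) * Nat.gcdB (orderOf A) j) := by
        rw [← zpow_natCast A j, zpow_mul]
    _ = A ^ ((orderOf A : ℤ) * Nat.gcdA (orderOf A) j) * A ^ ((j : ℤ) * Nat.gcdB (orderOf A) j) := by
        rw [zpow_mul A (orderOf A : ℤ), zpow_natCast, pow_orderOf_eq_one, one_zpow, one_mul]
    _ = A ^ ((Nat.gcd (orderOf A) j : ℕ) : ℤ) := by rw [← zpow_add, ← h]
    _ = A ^ (Nat.gcd (orderOf A) j) := zpow_natCast A _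

/-- In a cyclic group, an element whose order divides that of another lies in the subgroup the
latter generates. -/
theorem mem_zpowers_of_orderOf_dvd {G : Type*} [Group G] [Finite G] (Y x₁ x₂ : G)
    (h1 : x₁ ∈ Subgroup.zpowers Y) (h2 : x₂ ∈ Subgroup.zpowers Y)
    (h : orderOf x₁ ∣ orderOf x₂) : x₁ ∈ Subgroup.zpowers x₂ := by
  rw [← mem_powers_iff_mem_zpowers] at h1 h2
  obtain ⟨i, rfl⟩ := (Submonoid.mem_powers_iff _ _).1 h1
  obtain ⟨j, rfl⟩ := (Submonoid.mem_powers_iff _ _).1 h2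
  rw [orderOf_pow, orderOf_pow] at h
  have hopos : 0 < orderOf Y := orderOf_pos Y
  obtain ⟨c, hc⟩ := h
  have hgi : Nat.gcd (orderOf Y) i * (orderOf Y / Nat.gcd (orderOf Y) i) = orderOf Y :=
    Nat.mul_div_cancel' (Nat.gcd_dvd_left _ _)
  have hgj : Nat.gcd (orderOf Y) j * (orderOf Y / Nat.gcd (orderOf Y) j) = orderOf Y :=
    Nat.mul_div_cancel' (Nat.gcd_dvd_left _ _)
  have hapos : 0 < orderOf Y / Nat.gcd (orderOf Y) i :=
    Nat.div_pos (Nat.le_of_dvd hopos (Nat.gcd_dvd_left _ _)) (Nat.gcd_pos_of_pos_left _ hopos)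
  have hdvd : Nat.gcd (orderOf Y) j ∣ Nat.gcd (orderOf Y) i := by
    refine ⟨c, Nat.eq_of_mul_eq_mul_right hapos ?_⟩
    calc Nat.gcd (orderOf Y) i * (orderOf Y / Nat.gcd (orderOf Y) i) = orderOf Y := hgi
      _ = Nat.gcd (orderOf Y) j * (orderOf Y / Nat.gcd (orderOf Y) j) := hgj.symm
      _ = Nat.gcd (orderOf Y) j * (orderOf Y / Nat.gcd (orderOf Y) i * c) := by rw [hc]
      _ = Nat.gcd (orderOf Y) j * c * (orderOf Y / Nat.gcd (orderOf Y) i) := by ring
  obtain ⟨c', hc'⟩ := hdvd.trans (Nat.gcd_dvd_right _ _)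
  have h3 : Y ^ i = (Y ^ (Nat.gcd (orderOf Y) j)) ^ c' := by rw [← pow_mul, ← hc']
  rw [h3]
  exact Subgroup.pow_mem _ (pow_gcd_mem_zpowers Y j) _

/-- Concrete data in a subgroup isomorphic to a (generalized) quaternion group. -/
theorem quat_data {X : Type*} [Group X] (S : Subgroup X) (M : ℕ) (hM : M ≠ 0)
    (e : ↥S ≃* QuaternionGroup M) :
    ∃ A x : X, A ∈ S ∧ x ∈ S ∧ orderOf A = 2 * M ∧ x ∉ Subgroup.zpowers A ∧
      (∀ s ∈ S, s ∉ Subgroup.zpowers A → A * s * A = s) ∧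
      (∀ s ∈ S, s ∉ Subgroup.zpowers A → s ^ 4 = 1) ∧
      (∀ s ∈ S, ∀ t ∈ S, s ∉ Subgroup.zpowers A → t ∉ Subgroup.zpowers A →
        s * t ∈ Subgroup.zpowers A) := by
  haveI : NeZero M := ⟨hM⟩
  obtain ⟨A, hA⟩ : ∃ A : ↥S, e A = QuaternionGroup.a 1 := ⟨e.symm _, e.apply_symm_apply _⟩
  obtain ⟨B, hB⟩ : ∃ B : ↥S, e B = QuaternionGroup.xa 0 := ⟨e.symm _, e.apply_symm_apply _⟩
  have hoA : orderOf (A : X) = 2 * M := by
    rw [Subgroup.orderOf_coe, ← MulEquiv.orderOf_eq e, hA, QuaternionGroup.orderOf_a_one]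
  have key : ∀ s (hs : s ∈ S) (i : ZMod (2 * M)), e ⟨s, hs⟩ = QuaternionGroup.a i →
      s ∈ Subgroup.zpowers (A : X) := by
    intro s hs i hi
    rw [Subgroup.mem_zpowers_iff]
    refine ⟨(i.val : ℤ), ?_⟩
    have h1 : A ^ i.val = ⟨s, hs⟩ := by
      apply e.injective
      rw [map_pow, hA, QuaternionGroup.a_one_pow, hi, ZMod.natCast_zmod_val]
    have h2 := congrArg Subtype.val h1
    rw [zpow_natCast]
    simpa using h2
  have key2 : ∀ s (hs : s ∈ S), s ∈ Subgroup.zpowers (A : X) →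
      ∃ i, e ⟨s, hs⟩ = QuaternionGroup.a i := by
    intro s hs hsa
    have hfin : IsOfFinOrder (A : X) := by
      rw [← orderOf_pos_iff, hoA]; positivity
    rw [← hfin.mem_powers_iff_mem_zpowers] at hsa
    obtain ⟨j, hj⟩ := (Submonoid.mem_powers_iff _ _).1 hsa
    refine ⟨(j : ZMod (2 * M)), ?_⟩
    have h1 : (⟨s, hs⟩ : ↥S) = A ^ j := by
      apply Subtype.ext
      rw [Subgroup.coe_pow]; exact hj.symm
    rw [h1, map_pow, hA, QuaternionGroup.a_one_pow]
  refine ⟨(A : X), (B : X), A.2, B.2, hoA, ?_, ?_, ?_, ?_⟩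
  · intro hmem
    obtain ⟨i, hi⟩ := key2 (B : X) B.2 hmem
    have h1 : e B = QuaternionGroup.a i := hi
    rw [hB] at h1
    cases h1
  · intro s hs hsa
    cases h : e ⟨s, hs⟩ with
    | a i => exact absurd (key s hs i h) hsa
    | xa i =>
      have h1 : A * ⟨s, hs⟩ * A = ⟨s, hs⟩ := by
        apply e.injective
        rw [map_mul, map_mul, hA, h, QuaternionGroup.a_mul_xa, QuaternionGroup.xa_mul_a]
        congr 1
        ring
      exact congrArg Subtype.val h1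
  · intro s hs hsa
    cases h : e ⟨s, hs⟩ with
    | a i => exact absurd (key s hs i h) hsa
    | xa i =>
      have h1 : (⟨s, hs⟩ : ↥S) ^ 4 = 1 := by
        apply e.injective
        rw [map_pow, h, QuaternionGroup.xa_pow_four, map_one]
      have h2 := congrArg Subtype.val h1
      simpa using h2
  · intro s hs t ht hsa hta
    cases h : e ⟨s, hs⟩ with
    | a i => exact absurd (key s hs i h) hsa
    | xa i =>
      cases h' : e ⟨t, ht⟩ with
      | a j => exact absurd (key t ht j h') hta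
      | xa j =>
        apply key (s * t) (S.mul_mem hs ht) ((M : ZMod (2 * M)) + j - i)
        have h1 : (⟨s * t, S.mul_mem hs ht⟩ : ↥S) = ⟨s, hs⟩ * ⟨t, ht⟩ := rfl
        rw [h1, map_mul, h, h', QuaternionGroup.xa_mul_xa]

/-- Structure of a generalized quaternion 2-subgroup `S` of order `2 ^ (n + 4)` and its commutator
subgroup `D`. -/
theorem quat_struct {G : Type*} [Group G] [Finite G] (S : Subgroup G) (hS2 : IsPGroup 2 S) (n : ℕ)
    (e : ↥S ≃* QuaternionGroup (2 ^ (n + 2))) (D : Subgroup G) (hD : D = ⁅S, S⁆) :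
    ∃ A x : G, A ∈ S ∧ x ∈ S ∧ orderOf A = 2 ^ (n + 3) ∧ x ∉ Subgroup.zpowers A ∧
      (∀ s ∈ S, s ∉ Subgroup.zpowers A → s ^ 4 = 1) ∧
      (∀ s ∈ S, ∀ t ∈ S, s ∉ Subgroup.zpowers A → t ∉ Subgroup.zpowers A →
        s * t ∈ Subgroup.zpowers A) ∧
      A * A ∈ D ∧ D ≤ Subgroup.zpowers A ∧
      (∀ s ∈ S, s ∈ Subgroup.centralizer (D : Set G) ↔ s ∈ Subgroup.zpowers A) ∧
      S ≤ Subgroup.normalizer (D : Set G) ∧
      (∀ g ∈ Subgroup.normalizer (D : Set G), Odd (orderOf g) →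
        g ∈ Subgroup.centralizer (D : Set G)) := by
  obtain ⟨A, x, hAS, hxS, hoA, hxA, hAsA, hpow4, hmul⟩ :=
    quat_data S (2 ^ (n + 2)) (by positivity) e
  have hoA' : orderOf A = 2 ^ (n + 3) := by rw [hoA]; ring
  have hconjA : ∀ s ∈ S, s ∉ Subgroup.zpowers A → s * A * s⁻¹ = A⁻¹ := by
    intro s hs hsa
    have h := hAsA s hs hsa
    calc s * A * s⁻¹ = A⁻¹ * (A * s * A) * s⁻¹ := by group
      _ = A⁻¹ * s * s⁻¹ := by rw [h]
      _ = A⁻¹ := by group
  have hnormA : ∀ s ∈ S, ∀ t ∈ Subgroup.zpowers A, s * t * s⁻¹ ∈ Subgroup.zpowers A := by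
    intro s hs t ht
    by_cases hsa : s ∈ Subgroup.zpowers A
    · exact Subgroup.mul_mem _ (Subgroup.mul_mem _ hsa ht) (Subgroup.inv_mem _ hsa)
    · obtain ⟨j, rfl⟩ := Subgroup.mem_zpowers_iff.1 ht
      rw [← conj_zpow, hconjA s hs hsa]
      exact Subgroup.zpow_mem _ (Subgroup.inv_mem _ (Subgroup.mem_zpowers A)) j
  have hAAD : A * A ∈ D := by
    have h1 : x * A * x⁻¹ * A⁻¹ ∈ (⁅S, S⁆ : Subgroup G) :=
      Subgroup.commutator_mem_commutator hxS hAS
    rw [hconjA x hxS hxA, ← hD] at h1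
    have e1 : A⁻¹ * A⁻¹ = (A * A)⁻¹ := by group
    rw [e1] at h1
    exact inv_mem_iff.1 h1
  have hDA : D ≤ Subgroup.zpowers A := by
    rw [hD, Subgroup.commutator_le]
    intro g₁ h₁ g₂ h₂
    rw [commutatorElement_def]
    by_cases c1 : g₁ ∈ Subgroup.zpowers A
    · have e1 : g₁ * g₂ * g₁⁻¹ * g₂⁻¹ = g₁ * (g₂ * g₁⁻¹ * g₂⁻¹) := by group
      rw [e1]
      exact Subgroup.mul_mem _ c1 (hnormA g₂ h₂ _ (Subgroup.inv_mem _ c1))
    · by_cases c2 : g₂ ∈ Subgroup.zpowers A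
      · exact Subgroup.mul_mem _ (hnormA g₁ h₁ _ c2) (Subgroup.inv_mem _ c2)
      · have e1 : g₁ * g₂ * g₁⁻¹ * g₂⁻¹ = (g₁ * g₂) * (g₁⁻¹ * g₂⁻¹) := by group
        rw [e1]
        have c1' : g₁⁻¹ ∉ Subgroup.zpowers A :=
          fun h => c1 (by simpa using (Subgroup.zpowers A).inv_mem h)
        have c2' : g₂⁻¹ ∉ Subgroup.zpowers A :=
          fun h => c2 (by simpa using (Subgroup.zpowers A).inv_mem h)
        exact Subgroup.mul_mem _ (hmul g₁ h₁ g₂ h₂ c1 c2)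
          (hmul _ (S.inv_mem h₁) _ (S.inv_mem h₂) c1' c2')
  have hCS : ∀ s ∈ S, s ∈ Subgroup.centralizer (D : Set G) ↔ s ∈ Subgroup.zpowers A := by
    intro s hs
    constructor
    · intro hsC
      by_contra hsa
      have h1 : A * A * s = s * (A * A) := Subgroup.mem_centralizer_iff.1 hsC (A * A) hAAD
      have h2 : s * (A * A) * s⁻¹ = A⁻¹ * A⁻¹ := by
        calc s * (A * A) * s⁻¹ = (s * A * s⁻¹) * (s * A * s⁻¹) := by group
          _ = A⁻¹ * A⁻¹ := by rw [hconjA s hs hsa]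
      have h3 : A ^ 4 = 1 := by
        have h4 : A * A = A⁻¹ * A⁻¹ := by
          rw [← h2, ← h1]; group
        calc A ^ 4 = (A * A) * (A * A) := by
              rw [show (4 : ℕ) = 2 + 2 from rfl, pow_add, pow_two]
          _ = (A⁻¹ * A⁻¹) * (A * A) := by rw [← h4]
          _ = 1 := by group
      have h5 := orderOf_dvd_of_pow_eq_one h3
      rw [hoA'] at h5
      have h6 := Nat.le_of_dvd (by norm_num) h5
      have h7 : 2 ^ (n + 3) = 8 * 2 ^ n := by ring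
      have h8 : 0 < 2 ^ n := by positivity
      omega
    · intro hsa
      rw [Subgroup.mem_centralizer_iff]
      intro d hd
      obtain ⟨i, rfl⟩ := Subgroup.mem_zpowers_iff.1 (hDA hd)
      obtain ⟨j, rfl⟩ := Subgroup.mem_zpowers_iff.1 hsa
      exact ((Commute.refl A).zpow_zpow i j).eq
  have hSN : S ≤ Subgroup.normalizer (D : Set G) := by
    intro s hs
    apply mem_normalizer_of_conj_le D s
    intro d hd
    have hmap : (⁅S, S⁆ : Subgroup G).map (MulAut.conj s).toMonoidHom = ⁅S, S⁆ := by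
      rw [Subgroup.map_commutator, Helper14.map_conj_eq_self_of_mem S hs]
    have h1 := Helper14.conj_mem_map_conj (⁅S, S⁆ : Subgroup G) s (hD ▸ hd)
    rw [hmap, ← hD] at h1
    exact h1
  refine ⟨A, x, hAS, hxS, hoA', hxA, hpow4, hmul, hAAD, hDA, hCS, hSN, ?_⟩
  intro g hg hgodd
  obtain ⟨d, hd⟩ := exists_zpowers_eq_of_le D A hDA
  have hdD : d ∈ D := by rw [hd]; exact Subgroup.mem_zpowers d
  obtain ⟨f, hf⟩ := exists_orderOf_eq_two_pow S hS2 d
    ((Subgroup.zpowers_le.2 hAS) (hDA hdD))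
  have hmem : g * d * g⁻¹ ∈ Subgroup.zpowers d := by
    rw [← hd]; exact (Subgroup.mem_normalizer_iff.1 hg d).1 hdD
  have hcomm : g * d = d * g := comm_of_conj_mem_zpowers g d f hf hgodd hmem
  rw [Subgroup.mem_centralizer_iff]
  intro t ht
  have ht' : t ∈ Subgroup.zpowers d := by rw [← hd]; exact ht
  obtain ⟨j, rfl⟩ := Subgroup.mem_zpowers_iff.1 ht'
  have hc : Commute d g := hcomm.symm
  exact (hc.zpow_left j).eq

/-- An odd-order element centralizing `D ∋ A²` commutes with every `q ∈ ⟨A⟩` whose conjugate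
stays in `S`. -/
theorem quat_comm_of_mem {G : Type*} [Group G] [Finite G] (S : Subgroup G) (n : ℕ) (A : G)
    (hoA : orderOf A = 2 ^ (n + 3))
    (hpow4 : ∀ s ∈ S, s ∉ Subgroup.zpowers A → s ^ 4 = 1)
    (D : Subgroup G) (hAAD : A * A ∈ D) (g : G)
    (hgC : g ∈ Subgroup.centralizer (D : Set G)) (hgodd : Odd (orderOf g))
    (q : G) (hqA : q ∈ Subgroup.zpowers A) (hqS : g * q * g⁻¹ ∈ S) : g * q = q * g := by
  rw [← mem_powers_iff_mem_zpowers] at hqA
  obtain ⟨k, rfl⟩ := (Submonoid.mem_powers_iff _ _).1 hqA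
  obtain ⟨j, hj | hj⟩ := Nat.even_or_odd' k
  · have hqD : A ^ k ∈ D := by
      rw [hj, pow_mul, pow_two]
      exact Subgroup.pow_mem _ hAAD _
    exact (Subgroup.mem_centralizer_iff.1 hgC _ hqD).symm
  · have hcop : Nat.Coprime (orderOf A) k := by
      rw [hoA, hj]
      exact Nat.Coprime.pow_left _ (Nat.coprime_two_left.2 ⟨j, rfl⟩)
    have hoq : orderOf (A ^ k) = 2 ^ (n + 3) := by rw [hcop.orderOf_pow, hoA]
    have hle : Subgroup.zpowers (A ^ k) ≤ Subgroup.zpowers A :=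
      Subgroup.zpowers_le.2 (Subgroup.pow_mem _ (Subgroup.mem_zpowers A) _)
    have heq : Subgroup.zpowers (A ^ k) = Subgroup.zpowers A := by
      apply Subgroup.eq_of_le_of_card_ge hle
      rw [Nat.card_zpowers, Nat.card_zpowers, hoq, hoA]
    have hmem : g * A ^ k * g⁻¹ ∈ Subgroup.zpowers (A ^ k) := by
      rw [heq]
      by_contra hout
      have h1 := hpow4 _ hqS hout
      rw [conj_pow] at h1
      have h2 : (A ^ k) ^ 4 = 1 := conj_eq_one_iff.1 h1
      have h5 := orderOf_dvd_of_pow_eq_one h2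
      rw [hoq] at h5
      have h6 := Nat.le_of_dvd (by norm_num) h5
      have h7 : 2 ^ (n + 3) = 8 * 2 ^ n := by ring
      have h8 : 0 < 2 ^ n := by positivity
      omega
    exact comm_of_conj_mem_zpowers g (A ^ k) (n + 3) hoq hgodd hmem

end Cfsg.Agent.Helper9
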