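import Mathlib
import Cfsg.Prelude.Def_GeometricClasses

set_option autoImplicit false

open scoped MatrixGroups

namespace Cfsg.Agent.Helper9.S5998p3

theorem p3 {F : Type*} [Field F] (R : Subgroup (GL (Fin 3) F)) [Finite R] (a b u g : GL (Fin 3) F) (hRab : R = Subgroup.closure {a, b})
    (A B Y Wa Wb : Matrix (Fin 3) (Fin 3) F) (c : F)
    (ha : (a : Matrix (Fin 3) (Fin 3) F) * (g : Matrix (Fin 3) (Fin 3) F) = (g : Matrix (Fin 3) (Fin 3) F) * A)
    (hb : (b : Matrix (Fin 3) (Fin 3) F) * (g : Matrix (Fin 3) (Fin 3) F) = (g : Matrix (Fin 3) (Fin 3) F) * B)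
    (hu : (u : Matrix (Fin 3) (Fin 3) F) * (g : Matrix (Fin 3) (Fin 3) F) = c • ((g : Matrix (Fin 3) (Fin 3) F) * Y))
    (hWa : Y * A = Wa * Y) (hWb : Y * B = Wb * Y)
    (hWaR : ∃ a' ∈ R, (a' : Matrix (Fin 3) (Fin 3) F) * (g : Matrix (Fin 3) (Fin 3) F) = (g : Matrix (Fin 3) (Fin 3) F) * Wa)
    (hWbR : ∃ b' ∈ R, (b' : Matrix (Fin 3) (Fin 3) F) * (g : Matrix (Fin 3) (Fin 3) F) = (g : Matrix (Fin 3) (Fin 3) F) * Wb) :
    u ∈ Cfsg.Geo.subgroupNormalizer R := by
  classical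
  obtain ⟨a', ha'R, ha'⟩ := hWaR
  obtain ⟨b', hb'R, hb'⟩ := hWbR
  have key : ∀ (t t' : GL (Fin 3) F) (T W : Matrix (Fin 3) (Fin 3) F),
      (t : Matrix (Fin 3) (Fin 3) F) * (g : Matrix (Fin 3) (Fin 3) F)
        = (g : Matrix (Fin 3) (Fin 3) F) * T → Y * T = W * Y →
      (t' : Matrix (Fin 3) (Fin 3) F) * (g : Matrix (Fin 3) (Fin 3) F)
        = (g : Matrix (Fin 3) (Fin 3) F) * W → u * t * u⁻¹ = t' := by
    intro t t' T W ht hW ht'
    have h1 : (u : Matrix (Fin 3) (Fin 3) F) * (t : Matrix (Fin 3) (Fin 3) F) *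
        (g : Matrix (Fin 3) (Fin 3) F)
        = (t' : Matrix (Fin 3) (Fin 3) F) * (u : Matrix (Fin 3) (Fin 3) F) *
          (g : Matrix (Fin 3) (Fin 3) F) := by
      calc (u : Matrix (Fin 3) (Fin 3) F) * (t : Matrix (Fin 3) (Fin 3) F) *
            (g : Matrix (Fin 3) (Fin 3) F)
          = (u : Matrix (Fin 3) (Fin 3) F) * ((t : Matrix (Fin 3) (Fin 3) F) *
            (g : Matrix (Fin 3) (Fin 3) F)) := Matrix.mul_assoc _ _ _
        _ = (u : Matrix (Fin 3) (Fin 3) F) * ((g : Matrix (Fin 3) (Fin 3) F) * T) := by rw [ht]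
        _ = ((u : Matrix (Fin 3) (Fin 3) F) * (g : Matrix (Fin 3) (Fin 3) F)) * T :=
          (Matrix.mul_assoc _ _ _).symm
        _ = (c • ((g : Matrix (Fin 3) (Fin 3) F) * Y)) * T := by rw [hu]
        _ = c • ((g : Matrix (Fin 3) (Fin 3) F) * (Y * T)) := by
          rw [Matrix.smul_mul, Matrix.mul_assoc]
        _ = c • ((g : Matrix (Fin 3) (Fin 3) F) * (W * Y)) := by rw [hW]
        _ = c • (((g : Matrix (Fin 3) (Fin 3) F) * W) * Y) := by rw [Matrix.mul_assoc]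
        _ = c • (((t' : Matrix (Fin 3) (Fin 3) F) * (g : Matrix (Fin 3) (Fin 3) F)) * Y) := by
          rw [ht']
        _ = (t' : Matrix (Fin 3) (Fin 3) F) * (c • ((g : Matrix (Fin 3) (Fin 3) F) * Y)) := by
          rw [Matrix.mul_smul, Matrix.mul_assoc]
        _ = (t' : Matrix (Fin 3) (Fin 3) F) * ((u : Matrix (Fin 3) (Fin 3) F) *
            (g : Matrix (Fin 3) (Fin 3) F)) := by rw [hu]
        _ = (t' : Matrix (Fin 3) (Fin 3) F) * (u : Matrix (Fin 3) (Fin 3) F) *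
            (g : Matrix (Fin 3) (Fin 3) F) := (Matrix.mul_assoc _ _ _).symm
    have h2 : (u * t) * g = (t' * u) * g := Units.ext (by
      simp only [Units.val_mul]
      exact h1)
    have h3 : u * t = t' * u := mul_right_cancel h2
    rw [h3, mul_inv_cancel_right]
  have hcl0 : ∀ r, r ∈ Subgroup.closure {a, b} → u * r * u⁻¹ ∈ R := by
    intro r hr'
    induction hr' using Subgroup.closure_induction with
    | mem s hs =>
      rcases hs with hs | hs
      · rw [hs, key a a' A Wa ha hWa ha']; exact ha'R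
      · rw [Set.mem_singleton_iff.1 hs, key b b' B Wb hb hWb hb']; exact hb'R
    | one => simp [one_mem]
    | mul x y _ _ hx hy =>
      have e : u * (x * y) * u⁻¹ = (u * x * u⁻¹) * (u * y * u⁻¹) := by group
      rw [e]; exact R.mul_mem hx hy
    | inv x _ hx =>
      have e : u * x⁻¹ * u⁻¹ = (u * x * u⁻¹)⁻¹ := by group
      rw [e]; exact R.inv_mem hx
  have hcl : ∀ r, r ∈ (R : Set (GL (Fin 3) F)) → u * r * u⁻¹ ∈ (R : Set (GL (Fin 3) F)) := by
    intro r hr
    exact hcl0 r (by rw [← hRab]; exact hr)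
  show u ∈ Subgroup.normalizer (R : Set (GL (Fin 3) F))
  haveI : Finite ((R : Set (GL (Fin 3) F))) := inferInstanceAs (Finite R)
  exact Subgroup.mem_normalizer_fintype hcl

end Cfsg.Agent.Helper9.S5998p3
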