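import Mathlib
import Cfsg.Prelude.Def_GeometricClasses

set_option autoImplicit false

open scoped MatrixGroups

namespace Cfsg.Agent.Helper9.S5998p4

theorem p4 {F : Type*} [Field F] (N : Subgroup (GL (Fin 3) F)) (x k g : GL (Fin 3) F) (Y E : Matrix (Fin 3) (Fin 3) F) (c : F)
    (hx : (x : Matrix (Fin 3) (Fin 3) F) * (k : Matrix (Fin 3) (Fin 3) F) = c • ((k : Matrix (Fin 3) (Fin 3) F) * Y))
    (hE : E * Y = Y * E) (hdet : E.det * (k : Matrix (Fin 3) (Fin 3) F).det = (g : Matrix (Fin 3) (Fin 3) F).det)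
    (hN : ∀ u : GL (Fin 3) F, (u : Matrix (Fin 3) (Fin 3) F) * (g : Matrix (Fin 3) (Fin 3) F) = c • ((g : Matrix (Fin 3) (Fin 3) F) * Y) → u ∈ N) :
    ∃ h ∈ Cfsg.Geo.specialLinear (Fin 3) F, h⁻¹ * x * h ∈ N := by
  classical
  have hg0 : (g : Matrix (Fin 3) (Fin 3) F).det ≠ 0 :=
    IsUnit.ne_zero ((Matrix.isUnit_iff_isUnit_det _).mp (Units.isUnit g))
  have hE0 : E.det ≠ 0 := by
    intro h0
    rw [h0, zero_mul] at hdet
    exact hg0 hdet.symm
  obtain ⟨e, he⟩ : ∃ e : GL (Fin 3) F, (e : Matrix (Fin 3) (Fin 3) F) = E :=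
    ⟨Matrix.GeneralLinearGroup.mkOfDetNeZero E hE0, rfl⟩
  have hw1 : ((k⁻¹ * x * k : GL (Fin 3) F) : Matrix (Fin 3) (Fin 3) F) = c • Y := by
    rw [mul_assoc, Units.val_mul, Units.val_mul, hx, Matrix.mul_smul, ← Matrix.mul_assoc,
      Units.inv_mul, Matrix.one_mul]
  have hw2 : ((e⁻¹ * (k⁻¹ * x * k) * e : GL (Fin 3) F) : Matrix (Fin 3) (Fin 3) F) = c • Y := by
    rw [Units.val_mul, Units.val_mul, hw1, he, Matrix.mul_smul, Matrix.smul_mul, Matrix.mul_assoc,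
      ← hE, ← Matrix.mul_assoc, ← he, Units.inv_mul, Matrix.one_mul]
  refine ⟨k * e * g⁻¹, ?_, ?_⟩
  · show k * e * g⁻¹ ∈ (Matrix.GeneralLinearGroup.det : GL (Fin 3) F →* Fˣ).ker
    rw [MonoidHom.mem_ker, map_mul, map_mul, map_inv]
    have hd : Matrix.GeneralLinearGroup.det k * Matrix.GeneralLinearGroup.det e
        = Matrix.GeneralLinearGroup.det g := by
      apply Units.ext
      rw [Units.val_mul]
      show (k : Matrix (Fin 3) (Fin 3) F).det * (e : Matrix (Fin 3) (Fin 3) F).det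
        = (g : Matrix (Fin 3) (Fin 3) F).det
      rw [he, mul_comm]; exact hdet
    rw [hd, mul_inv_cancel]
  · apply hN
    have e1 : (k * e * g⁻¹)⁻¹ * x * (k * e * g⁻¹) * g = g * (e⁻¹ * (k⁻¹ * x * k) * e) := by group
    have e2 : (((k * e * g⁻¹)⁻¹ * x * (k * e * g⁻¹) : GL (Fin 3) F) : Matrix (Fin 3) (Fin 3) F) *
        (g : Matrix (Fin 3) (Fin 3) F)
        = (g : Matrix (Fin 3) (Fin 3) F) *
          ((e⁻¹ * (k⁻¹ * x * k) * e : GL (Fin 3) F) : Matrix (Fin 3) (Fin 3) F) := by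
      rw [← Units.val_mul, e1, Units.val_mul]
    rw [e2, hw2, Matrix.mul_smul]

end Cfsg.Agent.Helper9.S5998p4
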