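import Mathlib
import Cfsg.Prelude.Def_Classical
import Cfsg.Prelude.Def_ClassicalGeometry
import Cfsg.Prelude.Def_GeometricClasses
import Cfsg.Agent.Helper15.SpQa
import Cfsg.Agent.Helper27.SpD3

/-!
# Piece L9 for S5983 (involutions of Sp_2d(q), q even, are conjugate into the similarity group of Q)

* `range_mem` : for an involution `X` preserving `sympForm`, a vector orthogonal to the fixed space of `X`
  is of the form `X b + b`.
* `conj_of_ap` : the conjugation step.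
* `core`, `invol_conj` : the statement L9, with L4 (`plus_plus`) and L10 (`even_of_alt`) as explicit hypotheses.
-/

set_option autoImplicit false

open scoped MatrixGroups

namespace Cfsg.Agent.Helper9.SpQe1

open Matrix
open Cfsg.Agent.Helper15.SpQa

variable {F : Type*} [Field F] {d : ℕ}

/-- A vector orthogonal to the fixed space of a symplectic involution `X` lies in the range of `X + 1`. -/
theorem range_mem (hch : (2 : F) = 0) (X : Matrix (Fin d ⊕ Fin d) (Fin d ⊕ Fin d) F)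
    (hXX : X * X = 1)
    (hX : ∀ u v, Cfsg.sympForm d F (X *ᵥ u) (X *ᵥ v) = Cfsg.sympForm d F u v)
    (hsymm : ∀ u v, Cfsg.sympForm d F u v = Cfsg.sympForm d F v u)
    (e : Fin d ⊕ Fin d → F)
    (he : ∀ k, X *ᵥ k = k → Cfsg.sympForm d F e k = 0) :
    ∃ b₀ : Fin d ⊕ Fin d → F, X *ᵥ b₀ + b₀ = e := by
  classical
  obtain ⟨Nl, hNl⟩ : ∃ Nl : (Fin d ⊕ Fin d → F) →ₗ[F] (Fin d ⊕ Fin d → F),
      ∀ v, Nl v = X *ᵥ v + v :=
    ⟨Matrix.mulVecLin X + LinearMap.id, fun v => by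
      rw [LinearMap.add_apply, Matrix.mulVecLin_apply, LinearMap.id_apply]⟩
  have hXXv : ∀ v, X *ᵥ (X *ᵥ v) = v := by
    intro v
    rw [Matrix.mulVec_mulVec, hXX, Matrix.one_mulVec]
  have hmem : e ∈ LinearMap.range Nl := by
    rw [← Subspace.dualAnnihilator_dualCoannihilator_eq (W := LinearMap.range Nl)]
    rw [Submodule.mem_dualCoannihilator]
    intro φ hφ
    rw [Submodule.mem_dualAnnihilator] at hφ
    obtain ⟨c, hc⟩ := exists_rep φ
    have h1 : ∀ v, Cfsg.sympForm d F c (X *ᵥ v + v) = 0 := by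
      intro v
      rw [hc]
      apply hφ
      exact ⟨v, hNl v⟩
    have h2 : ∀ v, Cfsg.sympForm d F (X *ᵥ c + c) v = 0 := by
      intro v
      have h3 := h1 v
      rw [sf_add_right] at h3
      have h4 : Cfsg.sympForm d F c (X *ᵥ v) = Cfsg.sympForm d F (X *ᵥ c) v := by
        have h5 := hX c (X *ᵥ v)
        rw [hXXv] at h5
        exact h5.symm
      rw [sf_add_left, ← h4]
      exact h3
    have h5 : X *ᵥ c + c = 0 := sf_nondeg h2
    have h6 : X *ᵥ c = c := by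
      have h7 : c + c = 0 := by rw [← two_smul F c, hch, zero_smul]
      calc X *ᵥ c = X *ᵥ c + c + c := by rw [add_assoc, h7, add_zero]
        _ = c := by rw [h5, zero_add]
    rw [← hc, hsymm]
    exact he c h6
  obtain ⟨b₀, hb₀⟩ := hmem
  exact ⟨b₀, by rw [← hNl]; exact hb₀⟩

/-- The conjugation step: if `Q + (sympForm b ·)^2` is `x`-invariant and `Q b ∈ ℘(F)`, then a conjugate of `x`
preserves `Q`. -/
theorem conj_of_ap (hch : (2 : F) = 0) (Q : (Fin d ⊕ Fin d → F) → F)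
    (hsm : ∀ (c : F) (v : Fin d ⊕ Fin d → F), Q (c • v) = c ^ 2 * Q v)
    (hpol : ∀ u v : Fin d ⊕ Fin d → F, Q (u + v) = Q u + Q v + Cfsg.sympForm d F u v)
    (x : GL (Fin d ⊕ Fin d) F)
    (b : Fin d ⊕ Fin d → F) (hb : ∃ w : F, w ^ 2 + w = Q b)
    (hinv : ∀ v, Q ((x : Matrix (Fin d ⊕ Fin d) (Fin d ⊕ Fin d) F) *ᵥ v) +
        (Cfsg.sympForm d F b ((x : Matrix (Fin d ⊕ Fin d) (Fin d ⊕ Fin d) F) *ᵥ v)) ^ 2 =
        Q v + (Cfsg.sympForm d F b v) ^ 2) :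
    ∃ g ∈ Cfsg.spGL d F, g⁻¹ * x * g ∈ Cfsg.Geo.quadSimilarityGroup Q := by
  obtain ⟨g, c, hg, hgv, hgQ⟩ := reach hch Q hsm hpol b hb
  refine ⟨g⁻¹, (Cfsg.spGL d F).inv_mem hg, ?_⟩
  rw [inv_inv]
  refine ⟨1, fun u => ?_⟩
  rw [Units.val_one, one_mul]
  have h1 : ((g * x * g⁻¹ : GL (Fin d ⊕ Fin d) F) : Matrix (Fin d ⊕ Fin d) (Fin d ⊕ Fin d) F) *ᵥ u
      = (g : Matrix (Fin d ⊕ Fin d) (Fin d ⊕ Fin d) F) *ᵥ
        ((x : Matrix (Fin d ⊕ Fin d) (Fin d ⊕ Fin d) F) *ᵥ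
          (((g⁻¹ : GL (Fin d ⊕ Fin d) F) : Matrix (Fin d ⊕ Fin d) (Fin d ⊕ Fin d) F) *ᵥ u)) := by
    simp only [Units.val_mul, Matrix.mulVec_mulVec, Matrix.mul_assoc]
  have h2 : (g : Matrix (Fin d ⊕ Fin d) (Fin d ⊕ Fin d) F) *ᵥ
      (((g⁻¹ : GL (Fin d ⊕ Fin d) F) : Matrix (Fin d ⊕ Fin d) (Fin d ⊕ Fin d) F) *ᵥ u) = u := by
    rw [Matrix.mulVec_mulVec, ← Units.val_mul, mul_inv_cancel, Units.val_one, Matrix.one_mulVec]
  rw [h1, hgQ, hinv, ← hgQ, h2]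

/-- Core of L9 in matrix form. -/
theorem core [Fintype F] (hch : (2 : F) = 0) (Q : (Fin d ⊕ Fin d → F) → F)
    (hsm : ∀ (c : F) (v : Fin d ⊕ Fin d → F), Q (c • v) = c ^ 2 * Q v)
    (hpol : ∀ u v : Fin d ⊕ Fin d → F, Q (u + v) = Q u + Q v + Cfsg.sympForm d F u v)
    (X : Matrix (Fin d ⊕ Fin d) (Fin d ⊕ Fin d) F)
    (hXX : X * X = 1)
    (hX : ∀ u v, Cfsg.sympForm d F (X *ᵥ u) (X *ᵥ v) = Cfsg.sympForm d F u v)
    (L4 : ∀ (b : Fin d ⊕ Fin d → F) (U L : Submodule F (Fin d ⊕ Fin d → F)),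
        (∀ u ∈ U, Q u = 0) → (∀ l ∈ L, Q l + (Cfsg.sympForm d F b l) ^ 2 = 0) →
        Module.finrank F U = d → Module.finrank F L = d → ∃ w : F, w ^ 2 + w = Q b)
    (L10 : (∀ v, Cfsg.sympForm d F v (X *ᵥ v) = 0) →
        Module.finrank F (LinearMap.ker (Matrix.toLin' X - 1)) = d → Even d)
    (hpl : Cfsg.Geo.IsPlusTypeOn Q ⊤ ∨ Odd d) :
    ∃ b : Fin d ⊕ Fin d → F, (∃ w : F, w ^ 2 + w = Q b) ∧
      ∀ v, Q (X *ᵥ v) + (Cfsg.sympForm d F b (X *ᵥ v)) ^ 2 = Q v + (Cfsg.sympForm d F b v) ^ 2 := by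
  classical
  have hQ0 : Q 0 = 0 := by
    have h := hsm 0 0
    rw [zero_smul] at h
    rw [h]
    ring
  have hsymm : ∀ u v, Cfsg.sympForm d F u v = Cfsg.sympForm d F v u := by
    intro u v
    have h1 := hpol u v
    have h2 := hpol v u
    rw [add_comm v u] at h2
    linear_combination h2 - h1
  have hXXv : ∀ v, X *ᵥ (X *ᵥ v) = v := fun v => by
    rw [Matrix.mulVec_mulVec, hXX, Matrix.one_mulVec]
  have hvv : ∀ v : Fin d ⊕ Fin d → F, v + v = 0 := fun v => by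
    rw [← two_smul F v, hch, zero_smul]
  obtain ⟨e, he⟩ := exists_diff hch Q (fun v => Q (X *ᵥ v)) hsm hpol
    (fun c v => by
      show Q (X *ᵥ (c • v)) = c ^ 2 * Q (X *ᵥ v)
      rw [Matrix.mulVec_smul, hsm])
    (fun u v => by
      show Q (X *ᵥ (u + v)) = Q (X *ᵥ u) + Q (X *ᵥ v) + Cfsg.sympForm d F u v
      rw [Matrix.mulVec_add, hpol, hX])
  have he' : ∀ v, Q (X *ᵥ v) = Q v + (Cfsg.sympForm d F e v) ^ 2 := he
  have hek : ∀ k, X *ᵥ k = k → Cfsg.sympForm d F e k = 0 := by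
    intro k hk
    have h := he' k
    rw [hk] at h
    have h2 : (Cfsg.sympForm d F e k) ^ 2 = 0 := by linear_combination -h
    exact (pow_eq_zero_iff two_ne_zero).mp h2
  obtain ⟨b₀, hb₀⟩ := range_mem hch X hXX hX hsymm e hek
  have hinv : ∀ b, X *ᵥ b + b = e → ∀ v, Q (X *ᵥ v) + (Cfsg.sympForm d F b (X *ᵥ v)) ^ 2 =
      Q v + (Cfsg.sympForm d F b v) ^ 2 := by
    intro b hb v
    have h1 : Cfsg.sympForm d F b (X *ᵥ v) = Cfsg.sympForm d F (X *ᵥ b) v := by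
      have h5 := hX b (X *ᵥ v)
      rw [hXXv] at h5
      exact h5.symm
    have h2 : Cfsg.sympForm d F e v = Cfsg.sympForm d F (X *ᵥ b) v + Cfsg.sympForm d F b v := by
      rw [← hb, sf_add_left]
    rw [h1, he' v, h2]
    linear_combination (Cfsg.sympForm d F (X *ᵥ b) v * Cfsg.sympForm d F b v +
      Cfsg.sympForm d F (X *ᵥ b) v ^ 2) * hch
  by_cases hA : ∃ k₀, X *ᵥ k₀ = k₀ ∧ Q k₀ + (Cfsg.sympForm d F b₀ k₀) ^ 2 ≠ 0
  · obtain ⟨k₀, hk₀, ha⟩ := hA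
    have hsq : Function.Surjective (fun c : F => c ^ 2) :=
      Finite.injective_iff_surjective.mp (fun x y h => sq_inj_of_two hch h)
    obtain ⟨c, hc⟩ := hsq (Q b₀ / (Q k₀ + (Cfsg.sympForm d F b₀ k₀) ^ 2))
    have hc' : c ^ 2 * (Q k₀ + (Cfsg.sympForm d F b₀ k₀) ^ 2) = Q b₀ := by
      have hc2 : c ^ 2 = Q b₀ / (Q k₀ + (Cfsg.sympForm d F b₀ k₀) ^ 2) := hc
      rw [hc2, div_mul_cancel₀ _ ha]
    refine ⟨b₀ + c • k₀, ⟨c * Cfsg.sympForm d F b₀ k₀, ?_⟩, hinv _ ?_⟩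
    · rw [hpol, hsm, sf_smul_right]
      linear_combination hc' - (c ^ 2 * Q k₀) * hch
    · rw [Matrix.mulVec_add, Matrix.mulVec_smul, hk₀]
      calc X *ᵥ b₀ + c • k₀ + (b₀ + c • k₀) = (X *ᵥ b₀ + b₀) + (c • k₀ + c • k₀) := by abel
        _ = e := by rw [hvv, add_zero, hb₀]
  · have hB : ∀ k, X *ᵥ k = k → Q k + (Cfsg.sympForm d F b₀ k) ^ 2 = 0 := by
      intro k hk
      by_contra hne
      exact hA ⟨k, hk, hne⟩
    have hK : ∀ k ∈ LinearMap.ker (Matrix.toLin' X - 1), X *ᵥ k = k := by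
      intro k hk
      rw [LinearMap.mem_ker, LinearMap.sub_apply, Matrix.toLin'_apply, Module.End.one_apply,
        sub_eq_zero] at hk
      exact hk
    have hTI : Cfsg.Agent.Helper27.SpD3.TI d (LinearMap.ker (Matrix.toLin' X - 1)) := by
      intro u hu v hv
      have h_u := hB u (hK u hu)
      have h_v := hB v (hK v hv)
      have h_uv := hB (u + v) (hK (u + v) (Submodule.add_mem _ hu hv))
      rw [hpol, sf_add_right] at h_uv
      linear_combination h_uv - h_u - h_v -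
        (Cfsg.sympForm d F b₀ u * Cfsg.sympForm d F b₀ v) * hch
    have hle : Module.finrank F (LinearMap.ker (Matrix.toLin' X - 1)) ≤ d :=
      Cfsg.Agent.Helper27.SpD3.finrank_TI_le d _ hTI
    have hrk : LinearMap.range (Matrix.toLin' X - 1) ≤ LinearMap.ker (Matrix.toLin' X - 1) := by
      rintro _ ⟨v, rfl⟩
      rw [LinearMap.mem_ker, LinearMap.sub_apply, LinearMap.sub_apply, Matrix.toLin'_apply,
        Matrix.toLin'_apply, Module.End.one_apply, Module.End.one_apply, Matrix.mulVec_sub, hXXv]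
      have := hvv (v - X *ᵥ v)
      calc v - X *ᵥ v - (X *ᵥ v - v) = (v - X *ᵥ v) + (v - X *ᵥ v) := by abel
        _ = 0 := this
    have hge : d ≤ Module.finrank F (LinearMap.ker (Matrix.toLin' X - 1)) := by
      have h1 := LinearMap.finrank_range_add_finrank_ker (Matrix.toLin' X - 1)
      have h2 := Submodule.finrank_mono hrk
      have h3 : Module.finrank F (Fin d ⊕ Fin d → F) = 2 * d :=
        Cfsg.Agent.Helper27.SpD3.finrank_V d
      omega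
    have hKd : Module.finrank F (LinearMap.ker (Matrix.toLin' X - 1)) = d := le_antisymm hle hge
    rcases hpl with hplus | hodd
    · obtain ⟨U, -, hU, hUd⟩ := hplus
      have hdU : Module.finrank F U = d := by
        have h3 : Module.finrank F (Fin d ⊕ Fin d → F) = 2 * d :=
          Cfsg.Agent.Helper27.SpD3.finrank_V d
        simp only [finrank_top] at hUd
        omega
      exact ⟨b₀, L4 b₀ U _ hU (fun l hl => hB l (hK l hl)) hdU hKd, hinv b₀ hb₀⟩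
    · exfalso
      have halt : ∀ v, Cfsg.sympForm d F v (X *ᵥ v) = 0 := by
        intro v
        have hn : X *ᵥ (X *ᵥ v + v) = X *ᵥ v + v := by
          rw [Matrix.mulVec_add, hXXv, add_comm]
        have hAn := hB _ hn
        have hiv := hinv b₀ hb₀ v
        rw [hpol, sf_add_right] at hAn
        rw [hsymm]
        linear_combination hAn - hiv - (Q v + Cfsg.sympForm d F b₀ (X *ᵥ v) * Cfsg.sympForm d F b₀ v +
          Cfsg.sympForm d F b₀ v ^ 2) * hch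
      exact (Nat.not_even_iff_odd.mpr hodd) (L10 halt hKd)

/-- (L9) with L4 / L10 as explicit hypotheses. -/
theorem invol_conj [Fintype F] (hch : (2 : F) = 0) (Q : (Fin d ⊕ Fin d → F) → F)
    (hsm : ∀ (c : F) (v : Fin d ⊕ Fin d → F), Q (c • v) = c ^ 2 * Q v)
    (hpol : ∀ u v : Fin d ⊕ Fin d → F, Q (u + v) = Q u + Q v + Cfsg.sympForm d F u v)
    (L4 : ∀ (b : Fin d ⊕ Fin d → F) (U L : Submodule F (Fin d ⊕ Fin d → F)),
        (∀ u ∈ U, Q u = 0) → (∀ l ∈ L, Q l + (Cfsg.sympForm d F b l) ^ 2 = 0) →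
        Module.finrank F U = d → Module.finrank F L = d → ∃ w : F, w ^ 2 + w = Q b)
    (L10 : ∀ x : GL (Fin d ⊕ Fin d) F, x ∈ Cfsg.spGL d F →
        (x : Matrix (Fin d ⊕ Fin d) (Fin d ⊕ Fin d) F) * (x : Matrix (Fin d ⊕ Fin d) (Fin d ⊕ Fin d) F) = 1 →
        (∀ v, Cfsg.sympForm d F v ((x : Matrix (Fin d ⊕ Fin d) (Fin d ⊕ Fin d) F) *ᵥ v) = 0) →
        Module.finrank F (LinearMap.ker
          (Matrix.toLin' (x : Matrix (Fin d ⊕ Fin d) (Fin d ⊕ Fin d) F) - 1)) = d → Even d)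
    (hpl : Cfsg.Geo.IsPlusTypeOn Q ⊤ ∨ Odd d)
    (x : GL (Fin d ⊕ Fin d) F) (hx : x ∈ Cfsg.spGL d F)
    (hx2 : ∃ z : F, ((x ^ 2 : GL (Fin d ⊕ Fin d) F) : Matrix (Fin d ⊕ Fin d) (Fin d ⊕ Fin d) F) = z • 1) :
    ∃ g ∈ Cfsg.spGL d F, g⁻¹ * x * g ∈ Cfsg.Geo.quadSimilarityGroup Q := by
  classical
  have hX : ∀ u v, Cfsg.sympForm d F ((x : Matrix (Fin d ⊕ Fin d) (Fin d ⊕ Fin d) F) *ᵥ u)
      ((x : Matrix (Fin d ⊕ Fin d) (Fin d ⊕ Fin d) F) *ᵥ v) = Cfsg.sympForm d F u v := hx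
  have hXX : (x : Matrix (Fin d ⊕ Fin d) (Fin d ⊕ Fin d) F) *
      (x : Matrix (Fin d ⊕ Fin d) (Fin d ⊕ Fin d) F) = 1 := by
    obtain ⟨z, hz⟩ := hx2
    have hz' : (x : Matrix (Fin d ⊕ Fin d) (Fin d ⊕ Fin d) F) *
        (x : Matrix (Fin d ⊕ Fin d) (Fin d ⊕ Fin d) F) = z • 1 := by
      rw [← hz, pow_two, Units.val_mul]
    by_cases hz1 : z = 1
    · rw [hz', hz1, one_smul]
    · have hzv : ∀ v, ((x : Matrix (Fin d ⊕ Fin d) (Fin d ⊕ Fin d) F) *
          (x : Matrix (Fin d ⊕ Fin d) (Fin d ⊕ Fin d) F)) *ᵥ v = z • v := by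
        intro v
        rw [hz', Matrix.smul_mulVec, Matrix.one_mulVec]
      have h0 : ∀ u v, Cfsg.sympForm d F u v = 0 := by
        intro u v
        have h1 : Cfsg.sympForm d F
            ((x : Matrix (Fin d ⊕ Fin d) (Fin d ⊕ Fin d) F) *ᵥ
              ((x : Matrix (Fin d ⊕ Fin d) (Fin d ⊕ Fin d) F) *ᵥ u))
            ((x : Matrix (Fin d ⊕ Fin d) (Fin d ⊕ Fin d) F) *ᵥ
              ((x : Matrix (Fin d ⊕ Fin d) (Fin d ⊕ Fin d) F) *ᵥ v)) = Cfsg.sympForm d F u v := by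
          rw [hX, hX]
        rw [Matrix.mulVec_mulVec, Matrix.mulVec_mulVec, hzv, hzv, sf_smul_left, sf_smul_right] at h1
        have h2 : (z - 1) ^ 2 * Cfsg.sympForm d F u v = 0 := by
          linear_combination h1 + (Cfsg.sympForm d F u v - z * Cfsg.sympForm d F u v) * hch
        rcases mul_eq_zero.mp h2 with h3 | h3
        · exact absurd (sub_eq_zero.mp ((pow_eq_zero_iff two_ne_zero).mp h3)) hz1
        · exact h3
      have hv0 : ∀ v : Fin d ⊕ Fin d → F, v = 0 := fun v => sf_nondeg (fun w => h0 v w)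
      ext i j
      have h9 := congrFun (hv0 (fun _ => 1)) i
      simp at h9
  obtain ⟨b, hb, hinv⟩ := core hch Q hsm hpol _ hXX hX L4 (L10 x hx hXX) hpl
  exact conj_of_ap hch Q hsm hpol x b hb hinv

end Cfsg.Agent.Helper9.SpQe1
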