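import Mathlib
import Cfsg.Agent.Helper9.SpQe1
import Cfsg.Agent.Helper20.SpQb
import Cfsg.Agent.Helper18.SpQc

/-!
# Piece L9 for S5983, closed form (L4 = `Helper20.SpQb.plus_plus`, L10 = `Helper18.SpQc.even_of_alt` plugged in)
-/

set_option autoImplicit false

open scoped MatrixGroups

namespace Cfsg.Agent.Helper9.SpQe2

open Matrix

variable {F : Type*} [Field F] {d : ℕ}

/-- (L9) every element of `Sp_2d(F)` (F finite of characteristic 2) whose square is scalar is conjugate into the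
similarity group of `Q`, when `Q` is of plus type or `d` is odd. -/
theorem invol_conj [Fintype F] (hch : (2 : F) = 0) (Q : (Fin d ⊕ Fin d → F) → F)
    (hsm : ∀ (c : F) (v : Fin d ⊕ Fin d → F), Q (c • v) = c ^ 2 * Q v)
    (hpol : ∀ u v : Fin d ⊕ Fin d → F, Q (u + v) = Q u + Q v + Cfsg.sympForm d F u v)
    (hpl : Cfsg.Geo.IsPlusTypeOn Q ⊤ ∨ Odd d)
    (x : GL (Fin d ⊕ Fin d) F) (hx : x ∈ Cfsg.spGL d F)
    (hx2 : ∃ z : F, ((x ^ 2 : GL (Fin d ⊕ Fin d) F) : Matrix (Fin d ⊕ Fin d) (Fin d ⊕ Fin d) F) = z • 1) :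
    ∃ g ∈ Cfsg.spGL d F, g⁻¹ * x * g ∈ Cfsg.Geo.quadSimilarityGroup Q :=
  Cfsg.Agent.Helper9.SpQe1.invol_conj hch Q hsm hpol
    (fun b U L hU hL hdU hdL => Cfsg.Agent.Helper20.SpQb.plus_plus hch Q hsm hpol b U L hU hL hdU hdL)
    (fun x hx hx2 halt hker => Cfsg.Agent.Helper18.SpQc.even_of_alt hch x hx hx2 halt hker)
    hpl x hx hx2

end Cfsg.Agent.Helper9.SpQe2
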