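import Mathlib
import Cfsg.Prelude.Def_GeometricClasses
import Cfsg.Agent.S0278
import Cfsg.Agent.Helper8.SUBridge

set_option autoImplicit false

namespace Cfsg.Agent.Helper9.U3E

open Matrix

theorem arith3 (p : ℕ) (hp3 : p % 3 = 2) (hp9 : p % 9 ≠ 8) :
    ¬ 81 ∣ p ^ 3 * (p ^ 2 - 1) * (p ^ 3 + 1) := by
  obtain ⟨t, rfl⟩ : ∃ t, p = 3 * t + 2 := ⟨p / 3, by omega⟩
  have ht : t % 3 ≠ 2 := by omega
  have e1 : (3 * t + 2) ^ 2 - 1 = 3 * ((3 * t + 1) * (t + 1)) := by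
    have : (3 * t + 2) ^ 2 = 3 * ((3 * t + 1) * (t + 1)) + 1 := by ring
    omega
  have e2 : (3 * t + 2) ^ 3 + 1 = 9 * ((t + 1) * (3 * t ^ 2 + 3 * t + 1)) := by ring
  rw [e1, e2]
  intro h
  have e3 : (3 * t + 2) ^ 3 * (3 * ((3 * t + 1) * (t + 1))) *
      (9 * ((t + 1) * (3 * t ^ 2 + 3 * t + 1)))
      = 27 * ((3 * t + 2) ^ 3 * ((3 * t + 1) * (t + 1)) *
        ((t + 1) * (3 * t ^ 2 + 3 * t + 1))) := by ring
  rw [e3] at h
  have h3 : 3 ∣ (3 * t + 2) ^ 3 * ((3 * t + 1) * (t + 1)) *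
      ((t + 1) * (3 * t ^ 2 + 3 * t + 1)) := by
    have h' : 27 * 3 ∣ 27 * ((3 * t + 2) ^ 3 * ((3 * t + 1) * (t + 1)) *
        ((t + 1) * (3 * t ^ 2 + 3 * t + 1))) := h
    exact Nat.dvd_of_mul_dvd_mul_left (by norm_num) h'
  rcases (Nat.prime_three.dvd_mul).1 h3 with h | h
  · rcases (Nat.prime_three.dvd_mul).1 h with h | h
    · have := Nat.prime_three.dvd_of_dvd_pow h
      omega
    · rcases (Nat.prime_three.dvd_mul).1 h with h | h <;> omega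
  · rcases (Nat.prime_three.dvd_mul).1 h with h | h
    · omega
    · omega

theorem card_K {F : Type*} [Field F] [Fintype F] {p : ℕ} (hF : Fintype.card F = p ^ 2) :
    Nat.card ↥(Cfsg.GU 3 F p ⊓ Cfsg.Geo.specialLinear (Fin 3) F)
      = p ^ 3 * (p ^ 2 - 1) * (p ^ 3 + 1) := by
  classical
  have h1 := Cfsg.Agent.S0278.result hF 3 (by norm_num)
  have h2 : Nat.card (Cfsg.SU 3 F p)
      = Nat.card ↥(Cfsg.GU 3 F p ⊓ Cfsg.Geo.specialLinear (Fin 3) F) :=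
    Nat.card_congr (Equiv.ofBijective
      (fun A => (⟨Cfsg.Agent.Helper8.SUNd.suGL 3 F p A, Cfsg.Agent.Helper8.SUNd.suGL_mem A⟩ :
        ↥(Cfsg.GU 3 F p ⊓ Cfsg.Geo.specialLinear (Fin 3) F)))
      ⟨fun A B h => Cfsg.Agent.Helper8.SUNd.suGL_inj (congrArg Subtype.val h), fun g => by
        obtain ⟨A, hA⟩ := Cfsg.Agent.Helper8.SUNd.exists_su g.1 g.2
        exact ⟨A, Subtype.ext hA⟩⟩)
  have h3 : p ^ (3 * (3 - 1) / 2) * ∏ i ∈ Finset.range 3,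
      (if Even i then p ^ (i + 1) + 1 else p ^ (i + 1) - 1)
      = (p + 1) * (p ^ 3 * (p ^ 2 - 1) * (p ^ 3 + 1)) := by
    rw [Finset.prod_range_succ, Finset.prod_range_succ, Finset.prod_range_succ,
      Finset.prod_range_zero]
    have e0 : Even 0 := ⟨0, rfl⟩
    have e1 : ¬ Even 1 := Nat.not_even_one
    have e2 : Even 2 := ⟨1, rfl⟩
    rw [if_pos e0, if_neg e1, if_pos e2]
    norm_num
    ring
  rw [h3, h2] at h1
  exact Nat.eq_of_mul_eq_mul_left (Nat.succ_pos p) h1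

variable {F : Type*} [Field F] [Fintype F] {p : ℕ} [Fact p.Prime] [CharP F p]

theorem no3 (hF : Fintype.card F = p ^ 2) (hp3 : p % 3 = 2) (hp9 : p % 9 ≠ 8) (N R : Subgroup (GL (Fin 3) F)) (hR : Nat.card R = 27) (hRN : R ≤ N) (hRS : R ≤ Cfsg.GU 3 F p ⊓ Cfsg.Geo.specialLinear (Fin 3) F) : ¬ (3 ∣ N.relIndex (Cfsg.GU 3 F p ⊓ Cfsg.Geo.specialLinear (Fin 3) F)) := by
  classical
  intro h3
  have hK' := card_K (F := F) (p := p) hF
  have hRle : R ≤ N ⊓ (Cfsg.GU 3 F p ⊓ Cfsg.Geo.specialLinear (Fin 3) F) := le_inf hRN hRS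
  have h27 : 27 ∣ Nat.card ↥(N ⊓ (Cfsg.GU 3 F p ⊓ Cfsg.Geo.specialLinear (Fin 3) F)) := by
    rw [← hR]; exact Subgroup.card_dvd_of_le hRle
  have hmul : Nat.card ↥(N ⊓ (Cfsg.GU 3 F p ⊓ Cfsg.Geo.specialLinear (Fin 3) F)) *
      N.relIndex (Cfsg.GU 3 F p ⊓ Cfsg.Geo.specialLinear (Fin 3) F)
      = Nat.card ↥(Cfsg.GU 3 F p ⊓ Cfsg.Geo.specialLinear (Fin 3) F) := by
    have := Subgroup.relIndex_mul_relIndex ⊥
      (N ⊓ (Cfsg.GU 3 F p ⊓ Cfsg.Geo.specialLinear (Fin 3) F))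
      (Cfsg.GU 3 F p ⊓ Cfsg.Geo.specialLinear (Fin 3) F) bot_le inf_le_right
    rw [Subgroup.relIndex_bot_left, Subgroup.relIndex_bot_left, Subgroup.inf_relIndex_right]
      at this
    exact this
  have h81 : 27 * 3 ∣ Nat.card ↥(Cfsg.GU 3 F p ⊓ Cfsg.Geo.specialLinear (Fin 3) F) := by
    rw [← hmul]
    exact Nat.mul_dvd_mul h27 h3
  rw [hK'] at h81
  exact arith3 p hp3 hp9 h81

end Cfsg.Agent.Helper9.U3E
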